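import Mathlib.GroupTheory.Sylow

/-!
A Sylow subgroup fixes a point in every orbit of length prime to `p`.
-/

namespace CfsgLib.PermGroups

open MulAction
open scoped Pointwise

/-- A Sylow `p`-subgroup fixes a point in each orbit of length not divisible by `p`. -/
theorem exists_fixed_mem_orbit_of_not_dvd {G α : Type*} [Group G] [Finite G] [MulAction G α]
    {p : ℕ} [Fact p.Prime] (R : Sylow p G) (a : α) (h : ¬ p ∣ (orbit G a).ncard) :
    ∃ b ∈ orbit G a, ∀ r ∈ (R : Subgroup G), r • b = b := by
  rw [← index_stabilizer] at h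
  let P : Sylow p (stabilizer G a) := default
  obtain ⟨Q, hQ⟩ := IsPGroup.exists_le_sylow (P.2.map (stabilizer G a).subtype)
  have hPQ : (P : Subgroup (stabilizer G a)).map (stabilizer G a).subtype = (Q : Subgroup G) := by
    refine Subgroup.eq_of_le_of_card_ge hQ (le_of_eq ?_)
    rw [Subgroup.card_map_of_injective (Subgroup.subtype_injective _), Q.card_eq_multiplicity,
      P.card_eq_multiplicity]
    have hmul := Subgroup.index_mul_card (stabilizer G a)
    rw [← hmul, Nat.factorization_mul (fun h0 => h (by simp [h0])) Nat.card_pos.ne',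
      Finsupp.add_apply, Nat.factorization_eq_zero_of_not_dvd h, zero_add]
  obtain ⟨y, hy⟩ := exists_smul_eq G Q R
  refine ⟨y • a, mem_orbit a y, fun r hr => ?_⟩
  rw [← hy, Sylow.coe_subgroup_smul] at hr
  obtain ⟨q, hq, rfl⟩ := Subgroup.mem_map.1 hr
  rw [← hPQ] at hq
  obtain ⟨q', -, rfl⟩ := hq
  show (y * (q' : G) * y⁻¹) • y • a = y • a
  rw [mul_smul, mul_smul, inv_smul_smul, q'.2]

end CfsgLib.PermGroups
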