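import Cfsg.Agent.Lib.PermGroups.Jordan

/-!
Burnside's theorem on minimal normal subgroups of 2-transitive groups.
-/

namespace CfsgLib.PermGroups

open MulAction
open scoped Pointwise

set_option linter.unusedSectionVars false

variable {G α : Type*} [Group G] [Finite G] [MulAction G α] [Finite α]

theorem card_orbit_mul {β : Type*} [MulAction G β] (M : Subgroup G) (x : β) :
    (orbit M x).ncard * Nat.card (M ⊓ stabilizer G x : Subgroup G) = Nat.card M := by
  rw [← index_stabilizer, ← Subgroup.index_mul_card (stabilizer M x)]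
  congr 1
  rw [inf_comm, show stabilizer M x = (stabilizer G x).subgroupOf M from rfl,
    ← Subgroup.inf_subgroupOf_right]
  exact (Nat.card_congr (Subgroup.subgroupOfEquivOfLe inf_le_right).toEquiv).symm

/-- An invariant set made of orbits of equal length has cardinality a multiple of that length. -/
theorem dvd_ncard_of_invariant (M : Subgroup G) (h : ℕ) (s : Set α)
    (hinv : ∀ m : M, ∀ x ∈ s, m • x ∈ s) (horb : ∀ x ∈ s, (orbit M x).ncard = h) :
    h ∣ s.ncard := by
  induction hn : s.ncard using Nat.strong_induction_on generalizing s with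
  | _ n ih =>
    rcases s.eq_empty_or_nonempty with rfl | ⟨x, hx⟩
    · simp at hn; simp [← hn]
    have hsub : orbit M x ⊆ s := by
      rintro _ ⟨m, rfl⟩; exact hinv m x hx
    have hc : (s \ orbit M x).ncard + h = n := by
      rw [← horb x hx, Set.ncard_sdiff hsub, ← hn]
      have := Set.ncard_le_ncard hsub
      omega
    rw [← hc]
    refine dvd_add (ih _ ?_ (s \ orbit M x) ?_ (fun y hy => horb y hy.1) rfl) dvd_rfl
    · have : 0 < (orbit M x).ncard := (Set.ncard_pos (Set.toFinite _)).2 ⟨x, mem_orbit_self x⟩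
      rw [horb x hx] at this
      omega
    · intro m y hy
      refine ⟨hinv m y hy.1, fun hmem => hy.2 ?_⟩
      have := mem_orbit_of_mem_orbit m⁻¹ hmem
      rwa [inv_smul_smul] at this

/-- An imprimitive normal subgroup of a 2-transitive group has no non-trivial element fixing two
points (it is a Frobenius group or regular). -/
theorem fix_le_one_of_block [FaithfulSMul G α] [IsMultiplyPretransitive G α 2] (N : Subgroup G)
    [hNn : N.Normal] [IsPretransitive N α] (B₀ : Set α) (hB : IsBlock N B₀)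
    (hnt : B₀.Nontrivial) (hne : B₀ ≠ Set.univ) :
    ∀ x ∈ N, ∀ c d : α, c ≠ d → x • c = c → x • d = d → x = 1 := by
  classical
  -- the blocks are the translates of `B₀`
  let ℬ : Set (Set α) := {D | ∃ n ∈ N, n • B₀ = D}
  have htr : ∀ D ∈ ℬ, ∀ n ∈ N, n • D ∈ ℬ := by
    rintro _ ⟨m, hm, rfl⟩ n hn
    exact ⟨n * m, N.mul_mem hn hm, mul_smul n m B₀⟩
  have heq : ∀ D ∈ ℬ, ∀ E ∈ ℬ, ∀ z : α, z ∈ D → z ∈ E → D = E := by
    rintro _ ⟨m, hm, rfl⟩ _ ⟨n, hn, rfl⟩ z hzm hzn
    by_contra hne
    exact Set.disjoint_left.1 (hB (g₁ := (⟨m, hm⟩ : N)) (g₂ := (⟨n, hn⟩ : N)) hne) hzm hzn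
  have hcard : ∀ D ∈ ℬ, D.ncard = B₀.ncard := by
    rintro _ ⟨m, -, rfl⟩
    exact Set.ncard_smul_set m B₀
  obtain ⟨b₀, hb₀⟩ := hnt.nonempty
  have hcover : ∀ z : α, ∃ D ∈ ℬ, z ∈ D := fun z => by
    obtain ⟨n, hn⟩ := exists_smul_eq N b₀ z
    exact ⟨(n : G) • B₀, ⟨n, n.2, rfl⟩, hn ▸ Set.smul_mem_smul_set hb₀⟩
  have hsmulB : ∀ D ∈ ℬ, ∀ n ∈ N, ∀ z, z ∈ D → n • z ∈ D → n • D = D := fun D hD n hn z hz hnz =>
    heq _ (htr D hD n hn) D hD _ (Set.smul_mem_smul_set hz) hnz
  have htwo : 2 ≤ B₀.ncard := (Set.one_lt_ncard_iff_nontrivial).2 hnt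
  -- pointwise stabilisers of two points
  let P : α → α → Subgroup G := fun c d => N ⊓ stabilizer G c ⊓ stabilizer G d
  have hP : ∀ a b c d : α, a ≠ b → c ≠ d → Nat.card (P a b) = Nat.card (P c d) := by
    intro a b c d hab hcd
    obtain ⟨g, hgc, hgd⟩ := exists_smul_pair (G := G) hab hcd
    have hmap : (P a b).map (MulAut.conj g).toMonoidHom = P c d := by
      simp only [P]
      rw [Subgroup.map_inf _ _ _ (MulAut.conj g).injective,
        Subgroup.map_inf _ _ _ (MulAut.conj g).injective, ← stabilizer_smul_eq_stabilizer_map_conj,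
        ← stabilizer_smul_eq_stabilizer_map_conj, hgc, hgd]
      congr 2
      ext y
      rw [Subgroup.mem_map]
      constructor
      · rintro ⟨u, hu, rfl⟩
        exact hNn.conj_mem u hu g
      · intro hy
        exact ⟨g⁻¹ * y * g, by simpa using hNn.conj_mem y hy g⁻¹, by simp [mul_assoc]⟩
    rw [← hmap, Subgroup.card_map_of_injective (MulAut.conj g).injective]
  -- fixing a point and a block away from it means fixing that block pointwise
  have claim : ∀ (a : α) (C : Set α), C ∈ ℬ → a ∉ C → ∀ x ∈ N, x • a = a → x • C = C →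
      ∀ c ∈ C, x • c = c := by
    intro a C hC haC x hx hxa hxC c hcC
    obtain ⟨B, hB', haB⟩ := hcover a
    let Na : Subgroup G := N ⊓ stabilizer G a
    let NaC : Subgroup G := Na ⊓ stabilizer G C
    let NB : Subgroup G := N ⊓ stabilizer G B
    let NBC : Subgroup G := NB ⊓ stabilizer G C
    obtain ⟨b, hbB, hba⟩ := Set.exists_ne_of_one_lt_ncard (by rw [hcard B hB']; omega : 1 < B.ncard) a
    set h := (orbit Na b).ncard with hh
    have horb : ∀ z : α, z ≠ a → (orbit Na z).ncard = h := by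
      intro z hz
      have h1 := card_orbit_mul Na z
      have h2 := card_orbit_mul Na b
      rw [show Nat.card (Na ⊓ stabilizer G z : Subgroup G) = Nat.card (P a b) from hP a z a b hz.symm hba.symm]
        at h1
      rw [show (Na ⊓ stabilizer G b : Subgroup G) = P a b from rfl] at h2
      exact Nat.eq_of_mul_eq_mul_right Nat.card_pos (h1.trans h2.symm)
    have hfixB : ∀ y : Na, ∀ z ∈ B, y • z ∈ B := fun y z hz => by
      have : (y : G) • B = B := hsmulB B hB' y y.2.1 a haB (by
        rw [show (y : G) • a = a from y.2.2]; exact haB)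
      rw [← this]
      exact Set.smul_mem_smul_set hz
    -- `h` divides `|B| - 1`
    have hdvdB : h ∣ B.ncard - 1 := by
      rw [← Set.ncard_sdiff_singleton_of_mem haB]
      refine dvd_ncard_of_invariant Na h _ (fun y z hz => ⟨hfixB y z hz.1, fun he => hz.2 ?_⟩)
        fun z hz => horb z hz.2
      rw [Set.mem_singleton_iff] at he ⊢
      exact smul_left_cancel (y : G) (he.trans (show (y : G) • a = a from y.2.2).symm)
    have horbB : orbit NB a = B := by
      ext z
      constructor
      · rintro ⟨y, rfl⟩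
        exact (show (y : G) • B = B from y.2.2) ▸ Set.smul_mem_smul_set haB
      · intro hz
        obtain ⟨n, hn⟩ := exists_smul_eq N a z
        refine ⟨⟨n, n.2, hsmulB B hB' n n.2 a haB ?_⟩, hn⟩
        rw [show (n : G) • a = z from hn]; exact hz
    have hNaB : NB ⊓ stabilizer G a = Na := by
      refine le_antisymm (fun y hy => ⟨hy.1.1, hy.2⟩) fun y hy => ⟨⟨hy.1, ?_⟩, hy.2⟩
      exact hsmulB B hB' y hy.1 a haB (by rw [show y • a = a from hy.2]; exact haB)
    have e1 : B.ncard * Nat.card Na = Nat.card NB := by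
      rw [← hNaB, ← horbB]; exact card_orbit_mul NB a
    have e2 : (orbit Na C).ncard * Nat.card NaC = Nat.card Na := card_orbit_mul Na C
    have hNaCc : NaC ⊓ stabilizer G c = Na ⊓ stabilizer G c := by
      refine le_antisymm (fun y hy => ⟨hy.1.1, hy.2⟩) fun y hy => ⟨⟨hy.1, ?_⟩, hy.2⟩
      exact hsmulB C hC y hy.1.1 c hcC (by rw [show y • c = c from hy.2]; exact hcC)
    have e3 : (orbit NaC c).ncard * Nat.card (Na ⊓ stabilizer G c : Subgroup G) = Nat.card NaC := by
      rw [← hNaCc]; exact card_orbit_mul NaC c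
    have hca : c ≠ a := fun he => haC (he ▸ hcC)
    have e4 : h * Nat.card (Na ⊓ stabilizer G c : Subgroup G) = Nat.card Na := by
      rw [← horb c hca]; exact card_orbit_mul Na c
    have e5 : (orbit NB C).ncard * Nat.card NBC = Nat.card NB := card_orbit_mul NB C
    have hNBCa : NBC ⊓ stabilizer G a = NaC := by
      refine le_antisymm (fun y hy => ⟨⟨hy.1.1.1, hy.2⟩, hy.1.2⟩) fun y hy => ⟨⟨⟨hy.1.1, ?_⟩, hy.2⟩, hy.1.2⟩
      exact hsmulB B hB' y hy.1.1 a haB (by rw [show y • a = a from hy.1.2]; exact haB)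
    have e6 : (orbit NBC a).ncard * Nat.card NaC = Nat.card NBC := by
      rw [← hNBCa]; exact card_orbit_mul NBC a
    -- the union of the translates of `C` under `NB`
    have hdvdW : h ∣ (orbit NB C).ncard * B.ncard := by
      have := Fintype.ofFinite α
      let U := (orbit NB C).toFinset
      have hU : ∀ D ∈ U, D ∈ ℬ ∧ a ∉ D := by
        intro D hD
        rw [Set.mem_toFinset] at hD
        obtain ⟨y, rfl⟩ := hD
        refine ⟨htr C hC y y.2.1, fun hmem => ?_⟩
        have h1 : (y : G) • C = B := heq _ (htr C hC y y.2.1) B hB' a hmem haB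
        rw [← show (y : G) • B = B from y.2.2] at h1
        exact haC (smul_left_cancel _ h1 ▸ haB)
      let W : Finset α := U.biUnion fun D => D.toFinset
      have hdis : Set.PairwiseDisjoint (U : Set (Set α)) (fun D : Set α => D.toFinset) := by
        intro D hD E hE hDE
        rw [Function.onFun, Finset.disjoint_left]
        intro z hz hz'
        exact hDE (heq D (hU D hD).1 E (hU E hE).1 z (Set.mem_toFinset.1 hz) (Set.mem_toFinset.1 hz'))
      have hWc : W.card = (orbit NB C).ncard * B.ncard := by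
        rw [Finset.card_biUnion hdis, Finset.sum_congr rfl fun D hD => show D.toFinset.card = B.ncard by
          rw [← Set.ncard_eq_toFinset_card', hcard D (hU D hD).1, hcard B hB'],
          Finset.sum_const, smul_eq_mul, Set.ncard_eq_toFinset_card' (orbit NB C)]
      rw [← hWc, ← Set.ncard_coe_finset]
      refine dvd_ncard_of_invariant Na h _ (fun y z hz => ?_) fun z hz => horb z fun he => ?_
      · rw [Finset.mem_coe, Finset.mem_biUnion] at hz ⊢
        obtain ⟨D, hD, hzD⟩ := hz
        rw [Set.mem_toFinset] at hzD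
        refine ⟨(y : G) • D, ?_, by rw [Set.mem_toFinset]; exact Set.smul_mem_smul_set hzD⟩
        rw [Set.mem_toFinset] at hD ⊢
        exact mem_orbit_of_mem_orbit (⟨y, (hNaB.ge y.2).1⟩ : NB) hD
      · rw [Finset.mem_coe, Finset.mem_biUnion] at hz
        obtain ⟨D, hD, hzD⟩ := hz
        exact (hU D hD).2 (he ▸ Set.mem_toFinset.1 hzD)
    have hcop : Nat.Coprime h B.ncard := by
      have h1 : Nat.Coprime (B.ncard - 1) B.ncard := by
        obtain ⟨k, hk⟩ : ∃ k, B.ncard = k + 1 := ⟨B.ncard - 1, by have := hcard B hB'; omega⟩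
        rw [hk]
        simp
      exact Nat.Coprime.coprime_dvd_left hdvdB h1
    have hU' : (orbit NB C).ncard * (orbit NBC a).ncard = B.ncard * (orbit Na C).ncard := by
      apply Nat.eq_of_mul_eq_mul_right (Nat.card_pos (α := NaC))
      rw [mul_assoc, e6, e5, mul_assoc, e2, e1]
    have hdu : h ∣ (orbit Na C).ncard := by
      have h1 : h ∣ (orbit NB C).ncard := hcop.dvd_of_dvd_mul_right hdvdW
      have h2 := h1.trans (Dvd.intro _ hU')
      exact hcop.dvd_of_dvd_mul_left h2
    have hw : (orbit NaC c).ncard = 1 := by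
      have hupos : 0 < (orbit Na C).ncard := (Set.ncard_pos (Set.toFinite _)).2 ⟨C, mem_orbit_self C⟩
      have hwpos : 0 < (orbit NaC c).ncard := (Set.ncard_pos (Set.toFinite _)).2 ⟨c, mem_orbit_self c⟩
      have e7 : (orbit Na C).ncard * (orbit NaC c).ncard = h := by
        apply Nat.eq_of_mul_eq_mul_right (Nat.card_pos (α := (Na ⊓ stabilizer G c : Subgroup G)))
        rw [mul_assoc, e3, e2, e4]
      have hle := Nat.le_of_dvd hupos hdu
      by_contra hne1
      have hlt := Nat.lt_mul_iff_one_lt_right hupos |>.2 (by omega : 1 < (orbit NaC c).ncard)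
      omega
    obtain ⟨z, hz⟩ := Set.ncard_eq_one.1 hw
    have h1 : x • c ∈ orbit NaC c := ⟨⟨x, ⟨hx, hxa⟩, hxC⟩, rfl⟩
    have h2 : c ∈ orbit NaC c := mem_orbit_self c
    rw [hz, Set.mem_singleton_iff] at h1 h2
    rw [h1, h2]
  -- fixing two points in different blocks means fixing both blocks pointwise
  have hdiff : ∀ (D : Set α), D ∈ ℬ → ∀ d ∈ D, ∀ c, c ∉ D → ∀ x ∈ N, x • d = d → x • c = c →
      ∀ z ∈ D, x • z = z := fun D hD d hd c hc x hx hxd hxc =>
    claim c D hD hc x hx hxc (hsmulB D hD x hx d hd (by rw [hxd]; exact hd))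
  have hsame : ∀ (D : Set α), D ∈ ℬ → ∀ c ∈ D, ∀ d ∈ D, c ≠ d → ∀ x ∈ N, x • c = c → x • d = d →
      x = 1 := by
    intro D hD c hc d hd hcd x hx hxc hxd
    have hout : ∀ z, z ∉ D → x • z = z := by
      intro z hz
      have hle : P c z ≤ P c d := fun y hy =>
        ⟨hy.1, hdiff D hD c hc z hz y hy.1.1 hy.1.2 hy.2 d hd⟩
      have hzc : c ≠ z := fun he => hz (he ▸ hc)
      have heq' := Subgroup.eq_of_le_of_card_ge hle (hP c d c z hcd hzc).le
      have : x ∈ P c z := heq' ▸ ⟨⟨hx, hxc⟩, hxd⟩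
      exact this.2
    obtain ⟨n, hn, hnD⟩ := hD
    obtain ⟨z, hz⟩ : ∃ z, z ∉ D := by
      by_contra! hall
      apply hne
      rw [← inv_smul_smul n B₀, hnD, Set.eq_univ_of_forall hall, Set.smul_set_univ]
    refine eq_of_smul_eq_smul (α := α) fun y => ?_
    rw [one_smul]
    by_cases hy : y ∈ D
    · exact hdiff D ⟨n, hn, hnD⟩ c hc z hz x hx hxc (hout z hz) y hy
    · exact hout y hy
  intro x hx c d hcd hxc hxd
  obtain ⟨D, hD, hc⟩ := hcover c
  by_cases hd : d ∈ D
  · exact hsame D hD c hc d hd hcd x hx hxc hxd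
  · obtain ⟨e, he, hec⟩ := Set.exists_ne_of_one_lt_ncard (by rw [hcard D hD]; omega : 1 < D.ncard) c
    exact hsame D hD c hc e he hec.symm x hx hxc (hdiff D hD c hc d hd x hx hxc hxd e he)

/-- A non-abelian minimal normal subgroup of a 2-transitive group is simple and primitive. -/
theorem burnside_minimal_normal [FaithfulSMul G α] [h2 : IsMultiplyPretransitive G α 2]
    (N : Subgroup G) [hNn : N.Normal] (hN : N ≠ ⊥)
    (hmin : ∀ M : Subgroup G, M.Normal → M ≤ N → M = ⊥ ∨ M = N) :
    (IsMulCommutative N ∧ (∃ p : ℕ, p.Prime ∧ ∀ n ∈ N, n ^ p = 1) ∧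
        ∀ a : α, stabilizer N a = ⊥) ∨
      (IsSimpleGroup N ∧ IsPreprimitive N α) := by
  classical
  have hprimG := isPreprimitive_of_is_two_pretransitive h2
  have htN := isPretransitive_of_normal_of_preprimitive (α := α) N hN
  by_cases hab : IsMulCommutative N
  · exact Or.inl ⟨hab, exists_prime_exponent_of_abelian_minimal_normal N hN hmin hab,
      fun a => semiregular_of_abelian_transitive N hab a⟩
  right
  have hn : 2 ≤ Nat.card α := by
    by_contra hlt
    refine hN ((Subgroup.eq_bot_iff_forall _).2 fun x _ => eq_of_smul_eq_smul (α := α) fun z => ?_)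
    have : Subsingleton α := Finite.card_le_one_iff_subsingleton.1 (by omega)
    exact Subsingleton.elim _ _
  -- otherwise only the identity of `N` fixes two points
  have hnot : ¬ ∀ x ∈ N, ∀ c d : α, c ≠ d → x • c = c → x • d = d → x = 1 := by
    intro h1
    obtain ⟨p, j, hp, hj1, hj, -, K, hKn, hKN, hKc, -, hKt, hKsem, -⟩ :=
      exists_kernel_of_fix_le_one N hn h1
    rcases hmin K hKn hKN with h | h
    · obtain ⟨a⟩ : Nonempty α := (Nat.card_pos_iff.1 (show 0 < Nat.card α by omega)).1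
      have := card_eq_of_regular K (hKsem a)
      rw [h, Subgroup.card_bot] at this
      omega
    · exact hab (h ▸ hKc)
  obtain ⟨a⟩ : Nonempty α := (Nat.card_pos_iff.1 (show 0 < Nat.card α by omega)).1
  have hprimN : IsPreprimitive N α := by
    refine IsPreprimitive.of_isTrivialBlock_base a fun {B} _ hB => ?_
    rcases B.subsingleton_or_nontrivial with h | h
    · exact Or.inl h
    · refine Or.inr ?_
      by_contra hne
      exact hnot (fix_le_one_of_block N B hB h hne)
  refine ⟨?_, hprimN⟩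
  have hNnt : Nontrivial N := (Subgroup.nontrivial_iff_ne_bot N).2 hN
  by_contra hsimple
  -- a minimal normal subgroup of `N`
  obtain ⟨M, ⟨⟨hMn, hMbot⟩, hMmin⟩, hMtop⟩ : ∃ M : Subgroup N,
      ((M.Normal ∧ M ≠ ⊥) ∧ ∀ L : Subgroup N, L.Normal → L ≤ M → L ≠ ⊥ → L = M) ∧ M ≠ ⊤ := by
    obtain ⟨H, hHn, hH1, hH2⟩ : ∃ H : Subgroup N, H.Normal ∧ H ≠ ⊥ ∧ H ≠ ⊤ := by
      by_contra! h
      refine hsimple ⟨fun H hH => ?_⟩
      by_cases h0 : H = ⊥
      · exact Or.inl h0
      · exact Or.inr (h H hH h0)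
    obtain ⟨M, hMH, hM⟩ := exists_minimal_le_of_wellFoundedLT
      (fun L : Subgroup N => L.Normal ∧ L ≠ ⊥) H ⟨hHn, hH1⟩
    exact ⟨M, ⟨hM.1, fun L hL hLM hL0 => le_antisymm hLM (hM.2 ⟨hL, hL0⟩ hLM)⟩,
      fun h => hH2 (top_le_iff.1 (h ▸ hMH))⟩
  have htrans : ∀ L : Subgroup N, L.Normal → L ≠ ⊥ → IsPretransitive L α := fun L hL hL0 =>
    have := hL
    isPretransitive_of_normal_of_preprimitive (G := N) L hL0
  let σ : G → N ≃* N := fun g => MulAut.conjNormal g
  -- some conjugate differs from `M`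
  obtain ⟨g₀, hg₀⟩ : ∃ g : G, M.map (σ g).toMonoidHom ≠ M := by
    by_contra! hall
    have hn' : (M.map N.subtype).Normal := by
      refine ⟨?_⟩
      rintro _ ⟨m, hm, rfl⟩ g
      have : σ g m ∈ M := (hall g).le (Subgroup.mem_map_of_mem (σ g).toMonoidHom hm)
      exact ⟨σ g m, this, MulAut.conjNormal_apply g m⟩
    rcases hmin _ hn' (Subgroup.map_subtype_le M) with h | h
    · exact hMbot ((Subgroup.map_eq_bot_iff_of_injective _ (Subgroup.subtype_injective N)).1 h)
    · refine hMtop (Subgroup.map_injective (Subgroup.subtype_injective N) ?_)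
      rw [h, ← MonoidHom.range_eq_map, Subgroup.range_subtype]
  have hconjmin : ∀ g : G, ((M.map (σ g).toMonoidHom).Normal ∧ M.map (σ g).toMonoidHom ≠ ⊥) ∧
      ∀ L : Subgroup N, L.Normal → L ≤ M.map (σ g).toMonoidHom → L ≠ ⊥ →
        L = M.map (σ g).toMonoidHom := by
    intro g
    refine ⟨⟨hMn.map _ (σ g).surjective,
      fun h => hMbot ((Subgroup.map_eq_bot_iff_of_injective _ (σ g).injective).1 h)⟩,
      fun L hL hLM hL0 => ?_⟩
    have hLn : (L.comap (σ g).toMonoidHom).Normal := hL.comap _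
    have hle : L.comap (σ g).toMonoidHom ≤ M := by
      refine (Subgroup.comap_mono hLM).trans ?_
      exact (Subgroup.comap_map_eq_self_of_injective (f := (σ g).toMonoidHom) (σ g).injective M).le
    have hback : (L.comap (σ g).toMonoidHom).map (σ g).toMonoidHom = L :=
      Subgroup.map_comap_eq_self_of_surjective (f := (σ g).toMonoidHom) (σ g).surjective L
    have hne : L.comap (σ g).toMonoidHom ≠ ⊥ := fun h => hL0 (by
      rw [← hback, h, Subgroup.map_bot])
    rw [← hMmin _ hLn hle hne, hback]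
  set M' := M.map (σ g₀).toMonoidHom
  obtain ⟨⟨hM'n, hM'bot⟩, hM'min⟩ := hconjmin g₀
  have hdisj : ∀ L L' : Subgroup N, L.Normal → L'.Normal →
      (∀ J : Subgroup N, J.Normal → J ≤ L → J ≠ ⊥ → J = L) →
      (∀ J : Subgroup N, J.Normal → J ≤ L' → J ≠ ⊥ → J = L') → L ≠ L' →
      L' ≤ Subgroup.centralizer (L : Set N) := by
    intro L L' hL hL' h h' hne
    apply le_centralizer_of_normal_of_disjoint L L' hL hL'
    by_contra h0
    have := hL
    have := hL'
    exact hne ((h _ inferInstance inf_le_left h0).symm.trans (h' _ inferInstance inf_le_right h0))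
  have hM'c := hdisj M M' hMn hM'n hMmin hM'min (Ne.symm hg₀)
  have := htrans M hMn hMbot
  have := htrans M' hM'n hM'bot
  have : Nonempty α := ⟨a⟩
  have hCM := centralizer_eq_of_transitive_of_le (α := α) M M' hM'c
  have hCM' := centralizer_eq_of_transitive_of_le (α := α) M' M (Subgroup.le_centralizer_iff.1 hM'c)
  have semM := semiregular_of_le_centralizer (α := α) M' M (Subgroup.le_centralizer_iff.1 hM'c) a
  have semM' := semiregular_of_le_centralizer (α := α) M M' hM'c a
  rw [stabilizer_subgroup_eq_bot_iff] at semM semM'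
  -- only two conjugates
  have honly : ∀ g : G, M.map (σ g).toMonoidHom = M ∨ M.map (σ g).toMonoidHom = M' := by
    intro g
    obtain ⟨⟨hn', h0⟩, hm⟩ := hconjmin g
    by_contra hnot'
    rw [not_or] at hnot'
    have h1 := hdisj M _ hMn hn' hMmin hm (Ne.symm hnot'.1)
    rw [hCM] at h1
    exact hnot'.2 (hM'min _ hn' h1 h0)
  have hsame : ∀ m ∈ M, ∀ m' ∈ M', m • a = m' • a → orderOf m = orderOf m' := by
    intro m hm m' hm' he
    have hc : ∀ k : ℕ, (m' ^ k) • a = (m ^ k) • a := by
      intro k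
      induction k with
      | zero => simp
      | succ k ih =>
        rw [pow_succ', mul_smul, ih, ← mul_smul, ← hM'c hm' _ (M.pow_mem hm k), mul_smul, ← he,
          ← mul_smul, pow_succ]
    refine Nat.dvd_antisymm (orderOf_dvd_of_pow_eq_one ?_) (orderOf_dvd_of_pow_eq_one ?_)
    · exact semM _ (M.pow_mem hm _) (by rw [← hc, pow_orderOf_eq_one, one_smul])
    · exact semM' _ (M'.pow_mem hm' _) (by rw [hc, pow_orderOf_eq_one, one_smul])
  have hall : ∀ m ∈ M, ∀ m₁ ∈ M, m ≠ 1 → m₁ ≠ 1 → orderOf m = orderOf m₁ := by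
    intro m hm m₁ hm₁ h1 h1'
    obtain ⟨g, hga, hgm⟩ := exists_smul_pair (G := G) (a := a) (b := m • a) (c := a) (d := m₁ • a)
      (fun he => h1 (semM m hm he.symm)) (fun he => h1' (semM m₁ hm₁ he.symm))
    have he : σ g m • a = m₁ • a := by
      rw [← hgm]
      show ((σ g m : N) : G) • a = g • (m : G) • a
      rw [MulAut.conjNormal_apply, smul_smul_eq_conj_smul hga]
    have hord : orderOf (σ g m) = orderOf m :=
      orderOf_injective (σ g).toMonoidHom (σ g).injective m
    rcases honly g with h | h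
    · have hmem : σ g m ∈ M := h ▸ Subgroup.mem_map_of_mem (σ g).toMonoidHom hm
      have h' := semM _ (M.mul_mem (M.inv_mem hm₁) hmem) (by rw [mul_smul, he, inv_smul_smul])
      rw [← hord, ← inv_mul_eq_one.1 h']
    · have hmem : σ g m ∈ M' := h ▸ Subgroup.mem_map_of_mem (σ g).toMonoidHom hm
      rw [← hord, hsame m₁ hm₁ _ hmem he.symm]
  have hMnt : Nontrivial M := (Subgroup.nontrivial_iff_ne_bot M).2 hMbot
  obtain ⟨p, hp, hpd⟩ := Nat.exists_prime_and_dvd
    (fun h => hMbot (Subgroup.card_eq_one.1 h) : Nat.card M ≠ 1)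
  have := Fact.mk hp
  obtain ⟨x, hx⟩ := exists_prime_orderOf_dvd_card' (G := M) p hpd
  have hpM : IsPGroup p M := fun m => ⟨1, by
    rw [pow_one]
    by_cases h : m = 1
    · rw [h, one_pow]
    · refine orderOf_dvd_iff_pow_eq_one.1 ?_
      rw [← Subgroup.orderOf_coe, hall m m.2 x x.2 (fun h' => h (Subtype.ext h'))
        (fun h' => hp.one_lt.ne (by rw [← hx, ← Subgroup.orderOf_coe, h', orderOf_one])),
        Subgroup.orderOf_coe, hx]⟩
  obtain ⟨z, hz, hz1⟩ := (Subgroup.nontrivial_iff_exists_ne_one _).1 hpM.center_nontrivial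
  have hzc : (z : N) ∈ M ⊓ Subgroup.centralizer (M : Set N) :=
    ⟨z.2, fun w hw => congrArg Subtype.val (Subgroup.mem_center_iff.1 hz ⟨w, hw⟩)⟩
  have hMab : M ≤ Subgroup.centralizer (M : Set N) := by
    have := hMn
    have h := hMmin (M ⊓ Subgroup.centralizer (M : Set N)) inferInstance inf_le_left
      fun h0 => hz1 (Subtype.ext (Subgroup.mem_bot.1 (h0 ▸ hzc)))
    exact h.ge.trans inf_le_right
  rw [hCM] at hMab
  exact hg₀ (hM'min M hMn hMab hMbot).symm

end CfsgLib.PermGroups
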