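import Cfsg.Agent.Lib.PermGroups.PrimeDegreeSylow
import Cfsg.Agent.S0713
import Mathlib.GroupTheory.SpecificGroups.Alternating
import Mathlib.GroupTheory.Perm.Cycle.Concrete
import Mathlib.GroupTheory.GroupAction.MultipleTransitivity
import Mathlib.Tactic

/-!
Doubly transitive subgroups of the alternating group of degree eleven.
-/

set_option autoImplicit false
set_option linter.unusedSectionVars false
set_option linter.style.haveILetI false

namespace CfsgLib.PermGroups.Eleven

open MulAction Finset

theorem card_filter_smul_mem_mul {G β : Type*} [Group G] [Fintype G] [DecidableEq β]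
    [MulAction G β] (x : β) (O B : Finset β) (hO : ∀ b, b ∈ O ↔ ∃ g : G, g • x = b) (hB : B ⊆ O) :
    (univ.filter fun g : G => g • x ∈ B).card * O.card = B.card * Fintype.card G := by
  classical
  have hfib : ∀ b ∈ O, (univ.filter fun g : G => g • x = b).card =
      (univ.filter fun g : G => g • x = x).card := by
    intro b hb
    obtain ⟨g₀, hg₀⟩ := (hO b).1 hb
    refine card_bij' (fun g _ => g₀⁻¹ * g) (fun g _ => g₀ * g) ?_ ?_ ?_ ?_
    · intro g hg
      simp only [mem_filter, mem_univ, true_and] at hg ⊢
      rw [mul_smul, hg, inv_smul_eq_iff, hg₀]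
    · intro g hg
      simp only [mem_filter, mem_univ, true_and] at hg ⊢
      rw [mul_smul, hg, hg₀]
    · intro g _; simp
    · intro g _; simp
  have hkey : ∀ C : Finset β, C ⊆ O → (univ.filter fun g : G => g • x ∈ C).card =
      C.card * (univ.filter fun g : G => g • x = x).card := by
    intro C hC
    rw [card_eq_sum_card_fiberwise (f := fun g : G => g • x) (t := C) (by
      intro g hg; simpa using hg)]
    rw [sum_congr rfl fun b hb => ?_, sum_const, smul_eq_mul]
    rw [← hfib b (hC hb), filter_filter]
    congr 1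
    ext g
    simp only [mem_filter, mem_univ, true_and, and_iff_right_iff_imp]
    rintro rfl
    exact hb
  have hall : (univ.filter fun g : G => g • x ∈ O) = univ :=
    filter_true_of_mem fun g _ => (hO _).2 ⟨g, rfl⟩
  have h := hkey O subset_rfl
  rw [hall, card_univ] at h
  rw [hkey B hB, h]
  ring

/-- In a doubly transitive group a small set has a translate meeting it in exactly one point. -/
theorem exists_inter_card_one {G α : Type*} [Group G] [Fintype G] [Fintype α] [DecidableEq α]
    [MulAction G α] (h2 : IsMultiplyPretransitive G α 2) (S : Finset α) (hne : S.Nonempty)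
    (hS : (S.card - 1) ^ 2 + 1 < Fintype.card α) :
    ∃ g : G, (S.filter fun x => g • x ∈ S).card = 1 := by
  classical
  by_contra! hcon
  have hn : 2 ≤ Fintype.card α := by omega
  rw [is_two_pretransitive_iff] at h2
  set n := Fintype.card α
  set s := S.card
  have hT : ∀ a b : α, ∃ g : G, g • a = b := by
    intro a b
    obtain ⟨a', ha'⟩ := Fintype.exists_ne_of_one_lt_card hn a
    obtain ⟨b', hb'⟩ := Fintype.exists_ne_of_one_lt_card hn b
    obtain ⟨g, hg, -⟩ := h2 ha'.symm hb'.symm
    exact ⟨g, hg⟩
  have hA : (∑ g : G, (S.filter fun x => g • x ∈ S).card) * n = s * (s * Fintype.card G) := by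
    simp only [card_filter]
    rw [sum_comm, sum_mul, sum_congr rfl fun x _ => ?_, sum_const, smul_eq_mul]
    have h := card_filter_smul_mem_mul x univ S (fun b => iff_of_true (mem_univ b) (hT x b))
      (subset_univ S)
    simpa only [card_filter, card_univ] using h
  have hP : (∑ g : G, (S.offDiag.filter fun q => g • q ∈ S.offDiag).card) * (n * n - n) =
      (s * s - s) * ((s * s - s) * Fintype.card G) := by
    simp only [card_filter]
    rw [sum_comm, sum_mul, sum_congr rfl fun q hq => ?_, sum_const, smul_eq_mul, offDiag_card]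
    have h := card_filter_smul_mem_mul q univ.offDiag S.offDiag (fun b => by
      obtain ⟨-, -, hne'⟩ := mem_offDiag.1 hq
      constructor
      · intro hb
        obtain ⟨g, h1, h2⟩ := h2 hne' (mem_offDiag.1 hb).2.2
        exact ⟨g, Prod.ext h1 h2⟩
      · rintro ⟨g, rfl⟩
        exact mem_offDiag.2 ⟨mem_univ _, mem_univ _, fun e => hne' (smul_left_cancel g e)⟩)
      (offDiag_mono (subset_univ S))
    simpa only [card_filter, offDiag_card, card_univ] using h
  have hle : ∑ g : G, (S.filter fun x => g • x ∈ S).card ≤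
      ∑ g : G, (S.offDiag.filter fun q => g • q ∈ S.offDiag).card := by
    refine sum_le_sum fun g _ => ?_
    have heq : (S.offDiag.filter fun q => g • q ∈ S.offDiag) =
        (S.filter fun x => g • x ∈ S).offDiag := by
      ext ⟨u, v⟩
      simp only [mem_filter, mem_offDiag, Prod.smul_mk, ne_eq, smul_left_cancel_iff]
      tauto
    rw [heq, offDiag_card]
    generalize hm : (S.filter fun x => g • x ∈ S).card = m
    have h1 : m ≠ 1 := hm ▸ hcon g
    rcases Nat.eq_zero_or_pos m with rfl | hpos
    · exact Nat.zero_le _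
    · apply Nat.le_sub_of_add_le
      have := Nat.mul_le_mul_right m (show 2 ≤ m by omega)
      omega
  have hG : 0 < Fintype.card G := Fintype.card_pos
  have hs : 1 ≤ s := hne.card_pos
  have key : (∑ g : G, (S.filter fun x => g • x ∈ S).card) * n * (n * n - n) ≤
      (∑ g : G, (S.offDiag.filter fun q => g • q ∈ S.offDiag).card) * (n * n - n) * n := by
    calc _ = (∑ g : G, (S.filter fun x => g • x ∈ S).card) * (n * (n * n - n)) := by ring
      _ ≤ (∑ g : G, (S.offDiag.filter fun q => g • q ∈ S.offDiag).card) * (n * (n * n - n)) :=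
        Nat.mul_le_mul_right _ hle
      _ = _ := by ring
  have hn' : n * n - n = n * (n - 1) := by rw [Nat.mul_sub, mul_one]
  have hs' : s * s - s = s * (s - 1) := by rw [Nat.mul_sub, mul_one]
  rw [hA, hP, hn', hs'] at key
  have h1 : (s * s * Fintype.card G * n) * (n - 1) ≤
      (s * s * Fintype.card G * n) * ((s - 1) ^ 2) := by
    calc _ = s * (s * Fintype.card G) * (n * (n - 1)) := by ring
      _ ≤ _ := key
      _ = _ := by ring
  have h2 : n - 1 ≤ (s - 1) ^ 2 := Nat.le_of_mul_le_mul_left h1 (by positivity)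
  omega

/-- Two involutions whose supports meet in one point give a three-cycle. -/
theorem isThreeCycle_of_inter_one {α : Type*} [Fintype α] [DecidableEq α] (t u : Equiv.Perm α)
    (ht : t * t = 1) (hu : u * u = 1) (a : α) (hta : t a ≠ a) (hua : u a ≠ a)
    (h : ∀ x, t x ≠ x → u x ≠ x → x = a) : Equiv.Perm.IsThreeCycle (t * u * t * u) := by
  have tt : ∀ x, t (t x) = x := fun x => by rw [← Equiv.Perm.mul_apply, ht, Equiv.Perm.one_apply]
  have uu : ∀ x, u (u x) = x := fun x => by rw [← Equiv.Perm.mul_apply, hu, Equiv.Perm.one_apply]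
  have hsup : (t * u * t * u).support ⊆ {a, t a, u a} := by
    intro x hx
    rw [Equiv.Perm.mem_support] at hx
    simp only [Finset.mem_insert, Finset.mem_singleton]
    by_contra hcon
    push Not at hcon
    obtain ⟨h1, h2, h3⟩ := hcon
    apply hx
    simp only [Equiv.Perm.mul_apply]
    by_cases hu1 : u x = x
    · rw [hu1]
      by_cases ht1 : t x = x
      · rw [ht1, hu1, ht1]
      · have htx : t x ≠ a := fun e => h2 (by rw [← e, tt])
        have : u (t x) = t x := by
          by_contra e
          exact htx (h _ (by rw [tt]; exact Ne.symm ht1) e)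
        rw [this, tt]
    · have ht1 : t x = x := by
        by_contra e
        exact h1 (h _ e hu1)
      have hux : u x ≠ a := fun e => h3 (by rw [← e, uu])
      have : t (u x) = u x := by
        by_contra e
        exact hux (h _ e (by rw [uu]; exact Ne.symm hu1))
      rw [this, uu, ht1]
  have hsign : Equiv.Perm.sign (t * u * t * u) = 1 := by
    rw [map_mul, map_mul, map_mul]
    rcases Int.units_eq_one_or (Equiv.Perm.sign t) with e | e <;>
      rcases Int.units_eq_one_or (Equiv.Perm.sign u) with e' | e' <;> simp [e, e']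
  have hne : t * u * t * u ≠ 1 := by
    intro h0
    have h1 := congrArg (fun f : Equiv.Perm α => f (u a)) h0
    simp only [Equiv.Perm.mul_apply, Equiv.Perm.one_apply, uu] at h1
    -- `t a` is fixed by `u`
    have h2 : u (t a) = t a := by
      by_contra e
      exact hta (h _ (by rw [tt]; exact Ne.symm hta) e)
    rw [h2, tt] at h1
    exact hua h1.symm
  rw [← card_support_eq_three_iff]
  have hle : (t * u * t * u).support.card ≤ 3 :=
    (Finset.card_le_card hsup).trans Finset.card_le_three
  have h1 := Equiv.Perm.card_support_ne_one (t * u * t * u)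
  have h0 : (t * u * t * u).support.card ≠ 0 := fun e => hne (Equiv.Perm.card_support_eq_zero.1 e)
  have h2 : (t * u * t * u).support.card ≠ 2 := fun e => by
    rw [(Equiv.Perm.card_support_eq_two.1 e).sign_eq] at hsign
    exact absurd hsign (by decide)
  omega

variable {α : Type*} [Fintype α] [DecidableEq α]

/-- The shape of an element of prime order. -/
theorem exists_support_card {g : Equiv.Perm α} {q : ℕ} (hq : q.Prime) (hg : orderOf g = q) :
    ∃ k, g.cycleType = Multiset.replicate (k + 1) q ∧ g.support.card = (k + 1) * q ∧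
      g.support.card ≤ Fintype.card α := by
  obtain ⟨k, hk⟩ := Equiv.Perm.cycleType_prime_order (hg ▸ hq)
  refine ⟨k, hg ▸ hk, ?_, Finset.card_le_univ _⟩
  rw [← Equiv.Perm.sum_cycleType, hk, Multiset.sum_replicate, smul_eq_mul, hg]

/-- An element of prime order with few moved points is a cycle. -/
theorem isCycle_of_lt {g : Equiv.Perm α} {q : ℕ} (hq : q.Prime) (hg : orderOf g = q)
    (h : g.support.card < 2 * q) : g.IsCycle ∧ g.support.card = q := by
  obtain ⟨k, hk, hk', -⟩ := exists_support_card hq hg
  have hk0 : k = 0 := by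
    by_contra hne
    have : 2 * q ≤ (k + 1) * q := Nat.mul_le_mul_right _ (by omega)
    omega
  subst hk0
  refine ⟨?_, by rw [hk', zero_add, one_mul]⟩
  rw [← Equiv.Perm.card_cycleType_eq_one, hk, Multiset.card_replicate]

variable (hα : Fintype.card α = 11) {G : Subgroup (Equiv.Perm α)}
  [hpre : IsPretransitive G α] (hA : ¬ alternatingGroup α ≤ G)

include hα hA

theorem no_prime_cycle {g : Equiv.Perm α} (hg : g ∈ G) {q : ℕ} (hq : q.Prime) (hq8 : q ≤ 8)
    (hord : orderOf g = q) : 2 * q ≤ g.support.card := by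
  by_contra! h
  obtain ⟨h1, h2⟩ := isCycle_of_lt hq hord h
  have hp : IsPreprimitive G α := by
    refine IsPreprimitive.of_prime_card ?_
    rw [Nat.card_eq_fintype_card, hα]
    norm_num
  exact hA (Cfsg.Agent.S0713.result G hp hq (by omega) (by omega) h1 h2 hg)

theorem not_seven_dvd : ¬ 7 ∣ Nat.card G := by
  intro h
  have := Fact.mk (by norm_num : Nat.Prime 7)
  obtain ⟨g, hg⟩ := exists_prime_orderOf_dvd_card' (G := G) 7 h
  have hg' : orderOf (g : Equiv.Perm α) = 7 := by rwa [Subgroup.orderOf_coe]
  have h2 := no_prime_cycle hα hA g.2 (by norm_num) (by norm_num) hg'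
  have := Finset.card_le_univ (g : Equiv.Perm α).support
  omega

/-- An element of order five has exactly one fixed point. -/
theorem five_fixed {g : Equiv.Perm α} (hg : g ∈ G) (hord : orderOf g = 5) :
    g.support.card = 10 := by
  have h := no_prime_cycle hα hA hg (by norm_num) (by norm_num) hord
  obtain ⟨k, -, hk, hle⟩ := exists_support_card (by norm_num : Nat.Prime 5) hord
  omega

theorem not_twentyfive_dvd : ¬ 25 ∣ Nat.card G := by
  intro h
  have := Fact.mk (by norm_num : Nat.Prime 5)
  obtain ⟨l, hl⟩ : ∃ l : List α, l.Nodup ∧ l.length = 5 :=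
    ⟨((univ : Finset α).toList).take 5, (Finset.nodup_toList _).sublist (List.take_sublist _ _),
      by rw [List.length_take, Finset.length_toList, card_univ, hα]; norm_num⟩
  have hx : l.formPerm.IsCycle := List.isCycle_formPerm hl.1 (by omega)
  have hx5 : orderOf l.formPerm = 5 := by
    rw [hx.orderOf, List.support_formPerm_of_nodup _ hl.1 (fun x e => by rw [e] at hl; simp at hl),
      List.toFinset_card_of_nodup hl.1, hl.2]
  obtain ⟨g, hg⟩ := exists_conj_mem_of_pow_factorization_dvd (q := 5) G (by
    rw [Nat.card_perm, Nat.card_eq_fintype_card, hα,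
      show Nat.factorial 11 = 5 ^ 2 * 1596672 from rfl,
      Nat.factorization_mul (by norm_num) (by norm_num), Finsupp.add_apply,
      Nat.Prime.factorization_pow (by norm_num), Finsupp.single_eq_same,
      Nat.factorization_eq_zero_of_not_dvd (by norm_num)]
    exact h) (x := l.formPerm) (k := 1) (by rw [pow_one, ← hx5, pow_orderOf_eq_one])
  have hc := no_prime_cycle hα hA hg (by norm_num) (by norm_num)
    ((orderOf_injective (MulAut.conj g).toMonoidHom (MulAut.conj g).injective l.formPerm).trans hx5)
  rw [Equiv.Perm.card_support_conj, ← hx.orderOf, hx5] at hc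
  omega

theorem not_eightyone_dvd : ¬ 81 ∣ Nat.card G := by
  intro h
  refine hA (alternatingGroup_le_of_three_part (by omega) ?_ ?_)
  · refine IsPreprimitive.of_prime_card ?_
    rw [Nat.card_eq_fintype_card, hα]
    norm_num
  · rw [hα, show Nat.factorial 11 = 3 ^ 4 * 492800 from rfl,
      Nat.factorization_mul (by norm_num) (by norm_num), Finsupp.add_apply,
      Nat.Prime.factorization_pow (by norm_num), Finsupp.single_eq_same,
      Nat.factorization_eq_zero_of_not_dvd (by norm_num)]
    exact h

variable (hGA : G ≤ alternatingGroup α) [h2 : IsMultiplyPretransitive G α 2]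

include hGA h2

/-- An involution moves exactly eight points. -/
theorem involution_support {g : Equiv.Perm α} (hg : g ∈ G) (hord : orderOf g = 2) :
    g.support.card = 8 := by
  classical
  obtain ⟨k, hk, hk', hle⟩ := exists_support_card Nat.prime_two hord
  have hsign : Equiv.Perm.sign g = 1 := hGA hg
  rw [Equiv.Perm.sign_of_cycleType, hk, Multiset.sum_replicate, Multiset.card_replicate,
    smul_eq_mul] at hsign
  have hk5 : k < 5 := by omega
  interval_cases k
  · exact absurd hsign (by decide)
  · exfalso
    have hcard : g.support.card = 4 := hk'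
    obtain ⟨u, hu⟩ := exists_inter_card_one h2 g.support (Finset.card_pos.1 (by omega))
      (by rw [hcard, hα]; norm_num)
    obtain ⟨a, ha⟩ := Finset.card_eq_one.1 hu
    have hsq : g * g = 1 := by rw [← pow_two, ← hord, pow_orderOf_eq_one]
    set u' : Equiv.Perm α := (u : Equiv.Perm α)⁻¹ * g * (u : Equiv.Perm α) with hu'
    have hu'sq : u' * u' = 1 := by
      rw [hu']
      calc (u : Equiv.Perm α)⁻¹ * g * u * ((u : Equiv.Perm α)⁻¹ * g * u)
          = (u : Equiv.Perm α)⁻¹ * (g * g) * u := by group
        _ = 1 := by rw [hsq]; group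
    have hmove : ∀ x, u' x ≠ x ↔ u • x ∈ g.support := by
      intro x
      rw [Equiv.Perm.mem_support, Subgroup.smul_def, Equiv.Perm.smul_def, not_iff_not, hu',
        Equiv.Perm.mul_apply, Equiv.Perm.mul_apply, Equiv.Perm.inv_def,
        Equiv.symm_apply_eq]
    have hmem : a ∈ g.support.filter fun x => u • x ∈ g.support := ha ▸ Finset.mem_singleton_self a
    rw [Finset.mem_filter] at hmem
    have h3 := isThreeCycle_of_inter_one g u' hsq hu'sq a (Equiv.Perm.mem_support.1 hmem.1)
      ((hmove a).2 hmem.2) fun x hx1 hx2 => Finset.mem_singleton.1 (ha ▸ Finset.mem_filter.2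
        ⟨Equiv.Perm.mem_support.2 hx1, (hmove x).1 hx2⟩)
    have hprim : IsPreprimitive G α := by
      refine IsPreprimitive.of_prime_card ?_
      rw [Nat.card_eq_fintype_card, hα]
      norm_num
    exact hA (Equiv.Perm.alternatingGroup_le_of_isPreprimitive_of_isThreeCycle_mem hprim h3
      (G.mul_mem (G.mul_mem (G.mul_mem hg (G.mul_mem (G.mul_mem (G.inv_mem u.2) hg) u.2)) hg)
        (G.mul_mem (G.mul_mem (G.inv_mem u.2) hg) u.2)))
  · exact absurd hsign (by decide)
  · omega
  · exact absurd hsign (by decide)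

/-- A two-subgroup fixing two points fixes a third and is semiregular on the other eight. -/
theorem exists_third_fixed {T : Subgroup G} (hT : IsPGroup 2 T) {a b : α} (hab : a ≠ b)
    (ha : ∀ t ∈ T, t • a = a) (hb : ∀ t ∈ T, t • b = b) :
    ∃ c, c ≠ a ∧ c ≠ b ∧ (∀ t ∈ T, t • c = c) ∧
      ∀ t ∈ T, t ≠ 1 → ∀ x, t • x = x → x = a ∨ x = b ∨ x = c := by
  classical
  have := Fact.mk Nat.prime_two
  obtain ⟨c, hc, hca, hcb⟩ : ∃ c, c ∈ fixedPoints T α ∧ c ≠ a ∧ c ≠ b := by
    by_contra! hcon
    have h1 := hT.card_modEq_card_fixedPoints α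
    have hset : fixedPoints T α = {a, b} := by
      ext x
      constructor
      · intro hx
        by_cases hxa : x = a
        · exact Or.inl hxa
        · exact Or.inr (hcon x hx hxa)
      · rintro (rfl | rfl)
        · exact fun t => ha _ t.2
        · exact fun t => hb _ t.2
    rw [Nat.card_eq_fintype_card (α := α), hα, hset, Nat.card_coe_set_eq, Set.ncard_pair hab] at h1
    norm_num [Nat.ModEq] at h1
  refine ⟨c, hca, hcb, fun t ht => hc ⟨t, ht⟩, ?_⟩
  intro t ht ht1 x hx
  obtain ⟨k, hk⟩ := IsPGroup.iff_orderOf.1 hT ⟨t, ht⟩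
  rw [Subgroup.orderOf_mk] at hk
  have hk0 : k ≠ 0 := fun e => ht1 (orderOf_eq_one_iff.1 (by rw [hk, e, pow_zero]))
  obtain ⟨k, rfl⟩ := Nat.exists_eq_succ_of_ne_zero hk0
  set i := t ^ 2 ^ k with hi
  have hi2 : orderOf (i : Equiv.Perm α) = 2 := by
    rw [Subgroup.orderOf_coe, hi, orderOf_pow' _ (by positivity), hk,
      Nat.gcd_eq_right (pow_dvd_pow 2 (Nat.le_succ k)), pow_succ, Nat.mul_div_cancel_left _
      (by positivity)]
  have h8 := involution_support hα hA hGA i.2 hi2
  have hfix : ∀ y, t • y = y → (i : Equiv.Perm α) y = y := by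
    intro y hy
    show i • y = y
    exact (MulAction.mem_stabilizer_iff).1 (Subgroup.pow_mem _ (mem_stabilizer_iff.2 hy) _)
  by_contra hcon
  push Not at hcon
  have hsub : ({a, b, c, x} : Finset α) ⊆ (i : Equiv.Perm α).supportᶜ := by
    intro y hy
    rw [mem_compl, Equiv.Perm.notMem_support]
    simp only [mem_insert, mem_singleton] at hy
    rcases hy with rfl | rfl | rfl | rfl
    · exact hfix _ (ha _ ht)
    · exact hfix _ (hb _ ht)
    · exact hfix _ (hc ⟨t, ht⟩)
    · exact hfix _ hx
  have := card_le_card hsub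
  rw [card_compl, hα, h8] at this
  have h4 : ({a, b, c, x} : Finset α).card = 4 := by
    rw [card_insert_of_notMem, card_insert_of_notMem, card_pair hcon.2.2.symm] <;>
      simp [hab, hca.symm, hcb.symm, hcon.1.symm, hcon.2.1.symm]
  omega

/-- Such a subgroup has order at most eight, and is transitive on the eight points if it has that
order. -/
theorem card_le_eight {T : Subgroup G} {a b c : α} (hab : a ≠ b) (hca : c ≠ a) (hcb : c ≠ b)
    (ha : ∀ t ∈ T, t • a = a) (hb : ∀ t ∈ T, t • b = b) (hc : ∀ t ∈ T, t • c = c)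
    (hsemi : ∀ t ∈ T, t ≠ 1 → ∀ x, t • x = x → x = a ∨ x = b ∨ x = c) :
    Nat.card T ≤ 8 ∧ (Nat.card T = 8 → ∀ x y, x ≠ a → x ≠ b → x ≠ c → y ≠ a → y ≠ b → y ≠ c →
      ∃ t ∈ T, t • x = y) := by
  classical
  set R : Finset α := univ \ {a, b, c} with hR
  have hR8 : R.card = 8 := by
    rw [hR, card_univ_sdiff, hα, card_insert_of_notMem (by simp [hab, hca.symm]),
      card_pair hcb.symm]
  have himg : ∀ x ∈ R, (univ.image fun t : T => (t : G) • x) ⊆ R ∧
      (univ.image fun t : T => (t : G) • x).card = Nat.card T := by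
    intro x hx
    simp only [hR, mem_sdiff, mem_univ, true_and, mem_insert, mem_singleton, not_or] at hx
    refine ⟨fun y hy => ?_, ?_⟩
    · obtain ⟨t, -, rfl⟩ := mem_image.1 hy
      simp only [hR, mem_sdiff, mem_univ, true_and, mem_insert, mem_singleton, not_or]
      exact ⟨fun e => hx.1 (smul_left_cancel (t : G) (e.trans (ha _ t.2).symm)),
        fun e => hx.2.1 (smul_left_cancel (t : G) (e.trans (hb _ t.2).symm)),
        fun e => hx.2.2 (smul_left_cancel (t : G) (e.trans (hc _ t.2).symm))⟩
    · rw [card_image_of_injective, card_univ, Nat.card_eq_fintype_card]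
      intro s t hst
      by_contra hne
      have h1 : ((t⁻¹ * s : T) : G) • x = x := by
        rw [Subgroup.coe_mul, mul_smul, InvMemClass.coe_inv, inv_smul_eq_iff]
        exact hst
      rcases hsemi _ (t⁻¹ * s).2 (fun e => hne (inv_mul_eq_one.1 (Subtype.ext e)).symm) x h1 with
        e | e | e
      exacts [hx.1 e, hx.2.1 e, hx.2.2 e]
  refine ⟨?_, fun h8 x y hxa hxb hxc hya hyb hyc => ?_⟩
  · obtain ⟨x, hx⟩ := card_pos.1 (by omega : 0 < R.card)
    obtain ⟨h1, h2⟩ := himg x hx
    exact h2 ▸ hR8 ▸ card_le_card h1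
  · have hx : x ∈ R := by simp [hR, hxa, hxb, hxc]
    have hy : y ∈ R := by simp [hR, hya, hyb, hyc]
    obtain ⟨h1, h2⟩ := himg x hx
    rw [← eq_of_subset_of_card_le h1 (by omega)] at hy
    obtain ⟨t, -, ht⟩ := mem_image.1 hy
    exact ⟨t, t.2, ht⟩

/-- The order of the stabiliser of two points. -/
theorem card_pair_stabilizer {a b : α} (hab : a ≠ b) :
    Nat.card (stabilizer G (a, b)) * 110 = Nat.card G := by
  classical
  have horb : orbit G (a, b) = {q : α × α | q.1 ≠ q.2} := by
    ext ⟨x, y⟩
    constructor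
    · rintro ⟨g, hg⟩
      change g • (a, b) = (x, y) at hg
      rw [Prod.smul_mk, Prod.mk.injEq] at hg
      intro e
      exact hab (smul_left_cancel g (hg.1.trans (e.trans hg.2.symm)))
    · intro hxy
      obtain ⟨g, h1, h2'⟩ := (is_two_pretransitive_iff.1 h2) hab hxy
      exact ⟨g, Prod.ext h1 h2'⟩
  have h110 : Nat.card (orbit G (a, b)) = 110 := by
    rw [horb, Nat.card_eq_fintype_card]
    have : Fintype.card {q : α × α | q.1 ≠ q.2} = (univ : Finset α).offDiag.card := by
      rw [← Fintype.card_coe]
      exact Fintype.card_congr (Equiv.subtypeEquivRight fun q => by simp)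
    rw [this, offDiag_card, card_univ, hα]
  rw [← h110, ← (stabilizer G (a, b)).index_mul_card, index_stabilizer, Nat.card_coe_set_eq,
    mul_comm]

/-- The two-part of the stabiliser of two points is at most eight. -/
theorem not_sixteen_dvd {a b : α} (hab : a ≠ b) : ¬ 16 ∣ Nat.card (stabilizer G (a, b)) := by
  intro h
  have := Fact.mk Nat.prime_two
  obtain ⟨T, hT⟩ := Sylow.exists_subgroup_card_pow_prime (G := stabilizer G (a, b)) 2 (n := 4) h
  let T' : Subgroup G := T.map (Subgroup.subtype _)
  have hT' : Nat.card T' = 16 := by rw [Subgroup.card_subtype, hT]; norm_num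
  have hp : IsPGroup 2 T' := IsPGroup.of_card (n := 4) (by rw [hT']; norm_num)
  have hfix : ∀ t ∈ T', t • a = a ∧ t • b = b := by
    intro t ht
    have := mem_stabilizer_iff.1 (Subgroup.map_subtype_le T ht)
    rwa [Prod.smul_mk, Prod.mk.injEq] at this
  obtain ⟨c, hca, hcb, hc, hsemi⟩ := exists_third_fixed hα hA hGA hp hab
    (fun t ht => (hfix t ht).1) (fun t ht => (hfix t ht).2)
  have := (card_le_eight hα hA hGA hab hca hcb (fun t ht => (hfix t ht).1)
    (fun t ht => (hfix t ht).2) hc hsemi).1
  omega

/-- A group of order 7920 is sharply quadruply transitive. -/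
theorem sharply_four (hcard : Nat.card G = 7920) :
    IsMultiplyPretransitive G α 4 ∧ ∀ x : Fin 4 ↪ α, stabilizer G x = ⊥ := by
  classical
  have := Fact.mk Nat.prime_two
  have h72 : ∀ {a b : α}, a ≠ b → Nat.card (stabilizer G (a, b)) = 72 := by
    intro a b hab
    have := card_pair_stabilizer hα hA hGA hab
    omega
  have hfix : ∀ {a b : α} {g : G}, g ∈ stabilizer G (a, b) → g • a = a ∧ g • b = b := by
    intro a b g hg
    have := mem_stabilizer_iff.1 hg
    rwa [Prod.smul_mk, Prod.mk.injEq] at this
  have hex : ∀ {a b : α}, a ≠ b → ∃ c, c ≠ a ∧ c ≠ b ∧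
      ∀ x y, x ≠ a → x ≠ b → x ≠ c → y ≠ a → y ≠ b → y ≠ c →
        ∃ g ∈ stabilizer G (a, b), g • x = y := by
    intro a b hab
    obtain ⟨T, hT⟩ := Sylow.exists_subgroup_card_pow_prime (G := stabilizer G (a, b)) 2 (n := 3)
      (by rw [h72 hab]; norm_num)
    let T' : Subgroup G := T.map (Subgroup.subtype _)
    have hT' : Nat.card T' = 8 := by rw [Subgroup.card_subtype, hT]; norm_num
    have hle : T' ≤ stabilizer G (a, b) := Subgroup.map_subtype_le T
    have hp : IsPGroup 2 T' := IsPGroup.of_card (n := 3) (by rw [hT']; norm_num)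
    obtain ⟨c, hca, hcb, hc, hsemi⟩ := exists_third_fixed hα hA hGA hp hab
      (fun t ht => (hfix (hle ht)).1) (fun t ht => (hfix (hle ht)).2)
    refine ⟨c, hca, hcb, fun x y h1 h2' h3 h4 h5 h6 => ?_⟩
    obtain ⟨t, ht, e⟩ := (card_le_eight hα hA hGA hab hca hcb (fun t ht => (hfix (hle ht)).1)
      (fun t ht => (hfix (hle ht)).2) hc hsemi).2 hT' x y h1 h2' h3 h4 h5 h6
    exact ⟨t, hle ht, e⟩
  -- the stabiliser of two points moves every other point
  have hmove : ∀ {a b c : α}, a ≠ b → c ≠ a → c ≠ b →
      ∃ g ∈ stabilizer G (a, b), g • c ≠ c := by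
    by_contra hcon
    push Not at hcon
    obtain ⟨a, b, c, hab, hca, hcb, hc⟩ := hcon
    -- every pair of points has a third fixed one
    have hall : ∀ {x y : α}, x ≠ y → ∃ z, z ≠ x ∧ z ≠ y ∧
        ∀ g ∈ stabilizer G (x, y), g • z = z := by
      intro x y hxy
      obtain ⟨h, h1, h2'⟩ := (is_two_pretransitive_iff.1 h2) hab hxy
      refine ⟨h • c, fun e => hca (smul_left_cancel h (e.trans h1.symm)),
        fun e => hcb (smul_left_cancel h (e.trans h2'.symm)), fun g hg => ?_⟩
      have hmem : h⁻¹ * g * h ∈ stabilizer G (a, b) := by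
        have hxy' : h • (a, b) = (x, y) := Prod.ext h1 h2'
        rw [mem_stabilizer_iff, mul_smul, mul_smul, hxy', mem_stabilizer_iff.1 hg, inv_smul_eq_iff,
          hxy']
      have := hc _ hmem
      rwa [mul_smul, mul_smul, inv_smul_eq_iff] at this
    have huniq : ∀ {x y z : α}, x ≠ y → z ≠ x → z ≠ y →
        (∀ g ∈ stabilizer G (x, y), g • z = z) → ∀ w, w ≠ x → w ≠ y → w ≠ z →
        ∃ g ∈ stabilizer G (x, y), g • w ≠ w := by
      intro x y z hxy hzx hzy hz w hwx hwy hwz
      obtain ⟨c', hc'x, hc'y, htr⟩ := hex hxy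
      have hzc' : z = c' := by
        by_contra hne
        obtain ⟨u, hu1, hu2, hu3, hu4⟩ : ∃ u, u ≠ x ∧ u ≠ y ∧ u ≠ c' ∧ u ≠ z := by
          obtain ⟨u, hu⟩ := card_pos.1 (show 0 < ((univ : Finset α) \ {x, y, c', z}).card by
            have := le_card_sdiff ({x, y, c', z} : Finset α) univ
            have := card_le_four (a := x) (b := y) (c := c') (d := z)
            rw [card_univ, hα] at *
            omega)
          simp only [mem_sdiff, mem_univ, true_and, mem_insert, mem_singleton, not_or] at hu
          exact ⟨u, hu⟩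
        obtain ⟨g, hg, e⟩ := htr z u hzx hzy hne hu1 hu2 hu3
        exact hu4 (e ▸ hz g hg)
      subst hzc'
      obtain ⟨u, hu1, hu2, hu3, hu4⟩ : ∃ u, u ≠ x ∧ u ≠ y ∧ u ≠ z ∧ u ≠ w := by
        obtain ⟨u, hu⟩ := card_pos.1 (show 0 < ((univ : Finset α) \ {x, y, z, w}).card by
          have := le_card_sdiff ({x, y, z, w} : Finset α) univ
          have := card_le_four (a := x) (b := y) (c := z) (d := w)
          rw [card_univ, hα] at *
          omega)
        simp only [mem_sdiff, mem_univ, true_and, mem_insert, mem_singleton, not_or] at hu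
        exact ⟨u, hu⟩
      obtain ⟨g, hg, e⟩ := htr w u hwx hwy hwz hu1 hu2 hu3
      exact ⟨g, hg, e ▸ hu4⟩
    choose F hF1 hF2 hF3 using @hall
    have hFu : ∀ {x y : α} (hxy : x ≠ y) {w : α}, w ≠ x → w ≠ y →
        (∀ g ∈ stabilizer G (x, y), g • w = w) → w = F hxy := by
      intro x y hxy w hwx hwy hw
      by_contra hne
      obtain ⟨g, hg, e⟩ := huniq hxy (hF1 hxy) (hF2 hxy) (hF3 hxy) w hwx hwy hne
      exact e (hw g hg)
    have hsym : ∀ {x y : α} (hxy : x ≠ y), F hxy.symm = F hxy := fun hxy =>
      hFu hxy (hF2 hxy.symm) (hF1 hxy.symm) fun g hg => hF3 hxy.symm g (by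
        rw [mem_stabilizer_iff, Prod.smul_mk, (hfix hg).1, (hfix hg).2])
    have hshift : ∀ {x y : α} (hxy : x ≠ y) (hne : x ≠ F hxy), F hne = y := by
      intro x y hxy hne
      refine (hFu hne hxy.symm (hF2 hxy).symm fun g hg => ?_).symm
      have hle : stabilizer G (x, y) ≤ stabilizer G (x, F hxy) := fun k hk => by
        rw [mem_stabilizer_iff, Prod.smul_mk, (hfix hk).1, hF3 hxy k hk]
      have heq : stabilizer G (x, y) = stabilizer G (x, F hxy) :=
        Subgroup.eq_of_le_of_card_ge hle (by rw [h72 hxy, h72 hne])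
      exact (hfix (heq ▸ hg : g ∈ stabilizer G (x, y))).2
    let tri : α × α → Finset α := fun q => if h : q.1 = q.2 then ∅ else {q.1, q.2, F h}
    have hcount : ∀ s ∈ (univ : Finset α).offDiag.image tri,
        ((univ : Finset α).offDiag.filter fun q => tri q = s).card = 6 := by
      intro s hs
      obtain ⟨⟨x, y⟩, hq, rfl⟩ := mem_image.1 hs
      have hxy : x ≠ y := (mem_offDiag.1 hq).2.2
      set z := F hxy with hz
      have hxz : x ≠ z := (hF1 hxy).symm
      have hyz : y ≠ z := (hF2 hxy).symm
      have hset : tri (x, y) = {x, y, z} := by simp [tri, hxy, hz]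
      have hpts : ∀ u v, u ∈ ({x, y, z} : Finset α) → v ∈ ({x, y, z} : Finset α) → u ≠ v →
          tri (u, v) = ({x, y, z} : Finset α) := by
        intro u v hu hv huv
        have e1 : F hxy.symm = z := hsym hxy
        have e2 : F hxz = y := hshift hxy hxz
        have e3 : F hxz.symm = y := (hsym hxz).trans e2
        have e4 : F hyz = x := by
          have := hshift hxy.symm (by rw [e1]; exact hyz)
          simpa only [e1] using this
        have e5 : F hyz.symm = x := (hsym hyz).trans e4
        simp only [mem_insert, mem_singleton] at hu hv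
        rcases hu with rfl | rfl | rfl <;> rcases hv with rfl | rfl | rfl <;>
          first
          | exact absurd rfl huv
          | (simp only [tri, dif_neg huv]
             first | rw [← hz] | rw [e1] | rw [e2] | rw [e3] | rw [e4] | rw [e5]
             all_goals
               ext w
               simp only [mem_insert, mem_singleton]
               tauto)
      rw [hset]
      have h6 : ({x, y, z} : Finset α).offDiag.card = 6 := by
        rw [offDiag_card, card_insert_of_notMem (by simp [hxy, hxz]), card_pair hyz]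
      rw [← h6]
      congr 1
      ext ⟨u, v⟩
      simp only [mem_filter, mem_offDiag, mem_univ, true_and]
      constructor
      · rintro ⟨huv, he⟩
        simp only [tri, dif_neg huv] at he
        rw [← he]
        exact ⟨by simp, by simp, huv⟩
      · rintro ⟨hu, hv, huv⟩
        exact ⟨huv, hpts u v hu hv huv⟩
    have h110 := card_eq_sum_card_image tri (univ : Finset α).offDiag
    rw [sum_congr rfl hcount, sum_const, smul_eq_mul, offDiag_card, card_univ, hα] at h110
    omega
  -- three points
  have hthree : ∀ {a b c : α}, a ≠ b → c ≠ a → c ≠ b →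
      Nat.card (stabilizer G (a, b, c)) = 8 := by
    intro a b c hab hca hcb
    obtain ⟨c', hc'a, hc'b, htr⟩ := hex hab
    -- one orbit on the nine points
    have horb : ∀ w, w ≠ a → w ≠ b → ∃ g ∈ stabilizer G (a, b), g • c' = w := by
      intro w hwa hwb
      by_cases hwc : w = c'
      · exact ⟨1, one_mem _, by rw [one_smul, hwc]⟩
      obtain ⟨g, hg, hgc⟩ := hmove hab hc'a hc'b
      have h1 : g • c' ≠ a := fun e => hc'a (smul_left_cancel g (e.trans (hfix hg).1.symm))
      have h2' : g • c' ≠ b := fun e => hc'b (smul_left_cancel g (e.trans (hfix hg).2.symm))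
      obtain ⟨k, hk, hkw⟩ := htr _ w h1 h2' hgc hwa hwb hwc
      exact ⟨k * g, mul_mem hk hg, by rw [mul_smul, hkw]⟩
    have horbit : orbit (stabilizer G (a, b)) c = {w | w ≠ a ∧ w ≠ b} := by
      ext w
      constructor
      · rintro ⟨⟨g, hg⟩, rfl⟩
        exact ⟨fun e => hca (smul_left_cancel g (e.trans (hfix hg).1.symm)),
          fun e => hcb (smul_left_cancel g (e.trans (hfix hg).2.symm))⟩
      · rintro ⟨hwa, hwb⟩
        obtain ⟨g, hg, e⟩ := horb c hca hcb
        obtain ⟨k, hk, e'⟩ := horb w hwa hwb
        refine ⟨⟨k * g⁻¹, mul_mem hk (inv_mem hg)⟩, ?_⟩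
        show (k * g⁻¹) • c = w
        rw [mul_smul, ← e, inv_smul_smul, e']
    have h9 : Nat.card (orbit (stabilizer G (a, b)) c) = 9 := by
      rw [horbit, Nat.card_coe_set_eq, show {w : α | w ≠ a ∧ w ≠ b} = ({a, b} : Set α)ᶜ by
        ext; simp, Set.ncard_compl, Set.ncard_pair hab, Nat.card_eq_fintype_card, hα]
    have := (stabilizer (stabilizer G (a, b)) c).index_mul_card
    rw [index_stabilizer, ← Nat.card_coe_set_eq, h9, h72 hab] at this
    have he : Nat.card (stabilizer (stabilizer G (a, b)) c) =
        Nat.card (stabilizer G (a, b, c)) := by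
      refine Nat.card_congr
        { toFun := fun g => ⟨(g : stabilizer G (a, b)), ?_⟩
          invFun := fun g => ⟨⟨g, ?_⟩, ?_⟩
          left_inv := fun g => rfl
          right_inv := fun g => rfl }
      · have h1 := hfix (g : stabilizer G (a, b)).2
        have h2' : ((g : stabilizer G (a, b)) : G) • c = c := g.2
        rw [mem_stabilizer_iff, Prod.smul_mk, Prod.smul_mk, h1.1, h1.2, h2']
      · have h1 := mem_stabilizer_iff.1 g.2
        rw [Prod.smul_mk, Prod.smul_mk, Prod.mk.injEq, Prod.mk.injEq] at h1
        rw [mem_stabilizer_iff, Prod.smul_mk, h1.1, h1.2.1]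
      · have h1 := mem_stabilizer_iff.1 g.2
        rw [Prod.smul_mk, Prod.smul_mk, Prod.mk.injEq, Prod.mk.injEq] at h1
        exact h1.2.2
    omega
  have hbot : ∀ x : Fin 4 ↪ α, stabilizer G x = ⊥ := by
    intro x
    rw [eq_bot_iff]
    intro g hg
    rw [Subgroup.mem_bot]
    by_contra hg1
    have hgi : ∀ i, g • x i = x i := fun i => by
      have := congrArg (fun f : Fin 4 ↪ α => f i) (mem_stabilizer_iff.1 hg)
      exact this
    have hne : ∀ {i j : Fin 4}, i ≠ j → x i ≠ x j := fun h e => h (x.injective e)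
    set a := x 0
    set b := x 1
    set c := x 2
    have hab : a ≠ b := hne (by decide)
    have hca : c ≠ a := hne (by decide)
    have hcb : c ≠ b := hne (by decide)
    have hp : IsPGroup 2 (stabilizer G (a, b, c)) :=
      IsPGroup.of_card (n := 3) (by rw [hthree hab hca hcb]; norm_num)
    have hmem : ∀ t ∈ stabilizer G (a, b, c), t • a = a ∧ t • b = b ∧ t • c = c := by
      intro t ht
      have := mem_stabilizer_iff.1 ht
      rwa [Prod.smul_mk, Prod.smul_mk, Prod.mk.injEq, Prod.mk.injEq] at this
    obtain ⟨c', -, -, -, hsemi⟩ := exists_third_fixed hα hA hGA hp hab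
      (fun t ht => (hmem t ht).1) (fun t ht => (hmem t ht).2.1)
    have hgm : g ∈ stabilizer G (a, b, c) := by
      rw [mem_stabilizer_iff, Prod.smul_mk, Prod.smul_mk, hgi 0, hgi 1, hgi 2]
    have h1 := hsemi g hgm hg1 c (hgi 2)
    have h2' := hsemi g hgm hg1 (x 3) (hgi 3)
    rcases h1 with e | e | e
    · exact hca e
    · exact hcb e
    rcases h2' with e' | e' | e'
    · exact hne (by decide) e'
    · exact hne (by decide) e'
    · exact hne (i := 3) (j := 2) (by decide) (e'.trans e.symm)
  refine ⟨⟨fun x y => ?_⟩, hbot⟩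
  have hcardE : Nat.card (Fin 4 ↪ α) = 7920 := by
    rw [Nat.card_eq_fintype_card, Fintype.card_embedding_eq, Fintype.card_fin, hα]
    rfl
  have hbij : Function.Bijective fun g : G => g • x := by
    rw [Nat.bijective_iff_injective_and_card]
    refine ⟨fun g g' h => ?_, by rw [hcard, hcardE]⟩
    have : g'⁻¹ * g ∈ stabilizer G x := by
      rw [mem_stabilizer_iff, mul_smul, inv_smul_eq_iff]; exact h
    rw [hbot x, Subgroup.mem_bot, inv_mul_eq_one] at this
    exact this.symm
  exact hbij.surjective y

end CfsgLib.PermGroups.Eleven
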