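import Mathlib.GroupTheory.GroupAction.MultipleTransitivity
import Mathlib.GroupTheory.Perm.Sign
import Mathlib.Algebra.Group.Action.Pointwise.Finset

/-!
Generously `k`-transitive permutation groups.
-/

namespace CfsgLib.PermGroups

open MulAction
open scoped Pointwise

variable {α : Type*} [Fintype α] [DecidableEq α] {G : Subgroup (Equiv.Perm α)} {k : ℕ}

/-- Any permutation preserving a set of at most `k + 1` points is induced on it by the group. -/
theorem generous_extend (hk : k < Fintype.card α)
    (hgen : ∀ s : Finset α, s.card = k + 1 → ∀ σ : Equiv.Perm ↥s, ∃ g ∈ G, ∀ x : ↥s, g (x : α) = σ x)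
    (T : Finset α) (hT : T.card ≤ k + 1) (τ : Equiv.Perm α)
    (hτ : ∀ x, x ∉ T → τ x = x) : ∃ g ∈ G, ∀ x ∈ T, g x = τ x := by
  obtain ⟨U, hTU, -, hU⟩ :=
    Finset.exists_subsuperset_card_eq (Finset.subset_univ T) hT
      (by rw [Finset.card_univ]; exact hk)
  have hmem : ∀ x, τ x ∈ U ↔ x ∈ U := by
    intro x
    by_cases hx : x ∈ T
    · have : τ x ∈ T := by
        by_contra h
        exact h (by rw [τ.injective (hτ _ h)]; exact hx)
      exact iff_of_true (hTU this) (hTU hx)
    · rw [hτ x hx]
  obtain ⟨g, hg, hgx⟩ := hgen U hU (τ.subtypePerm hmem)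
  exact ⟨g, hg, fun x hx => hgx ⟨x, hTU hx⟩⟩

/-- A generously `k`-transitive group is `k`-transitive. -/
theorem generous_isMultiplyPretransitive (hk : k < Fintype.card α)
    (hgen : ∀ s : Finset α, s.card = k + 1 → ∀ σ : Equiv.Perm ↥s, ∃ g ∈ G, ∀ x : ↥s, g (x : α) = σ x) :
    IsMultiplyPretransitive G α k := by
  suffices H : ∀ d, ∀ x y : Fin k ↪ α, (Finset.univ.filter fun i => x i ≠ y i).card = d →
      ∃ g : G, g • x = y from ⟨fun x y => H _ x y rfl⟩
  intro d
  induction d using Nat.strong_induction_on with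
  | _ d ih =>
    intro x y hd
    by_cases h : ∀ i, x i = y i
    · exact ⟨1, Function.Embedding.ext fun i => h i⟩
    · obtain ⟨i, hi⟩ := not_forall.1 h
      let T : Finset α := insert (y i) (Finset.univ.image x)
      have hTc : T.card ≤ k + 1 := (Finset.card_insert_le _ _).trans
        (Nat.succ_le_succ (Finset.card_image_le.trans (by simp)))
      have hxT : ∀ j, x j ∈ T := fun j =>
        Finset.mem_insert_of_mem (Finset.mem_image_of_mem x (Finset.mem_univ j))
      obtain ⟨g, hg, hgT⟩ := generous_extend hk hgen T hTc (Equiv.swap (x i) (y i)) fun z hz =>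
        Equiv.swap_apply_of_ne_of_ne (fun e => hz (e ▸ hxT i))
          (fun e => hz (e ▸ Finset.mem_insert_self _ _))
      let g' : G := ⟨g, hg⟩
      have hgx : ∀ j, (g' • x) j = Equiv.swap (x i) (y i) (x j) := fun j => by
        rw [Function.Embedding.smul_apply]; exact hgT _ (hxT j)
      have hlt : (Finset.univ.filter fun j => (g' • x) j ≠ y j).card < d := by
        rw [← hd]
        apply Finset.card_lt_card
        refine ⟨fun j hj => ?_, fun hsub => ?_⟩
        · simp only [Finset.mem_filter, Finset.mem_univ, true_and] at hj ⊢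
          intro hxy
          apply hj
          rw [hgx j, Equiv.swap_apply_of_ne_of_ne, hxy]
          · intro e
            exact hi (x.injective e ▸ hxy)
          · intro e
            have hji : j = i := y.injective (hxy.symm.trans e)
            exact hi (hji ▸ hxy)
        · have := hsub (by simp [hi] : i ∈ Finset.univ.filter fun j => x j ≠ y j)
          exact (Finset.mem_filter.1 this).2 ((hgx i).trans (Equiv.swap_apply_left _ _))
      obtain ⟨g₂, hg₂⟩ := ih _ hlt (g' • x) y rfl
      exact ⟨g₂ * g', Function.Embedding.ext fun j => by rw [← hg₂]; rfl⟩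

/-- The setwise and pointwise stabilisers of a `k`-set have the same orbits outside it. -/
theorem generous_setwise_orbits (hk : k < Fintype.card α)
    (hgen : ∀ s : Finset α, s.card = k + 1 → ∀ σ : Equiv.Perm ↥s, ∃ g ∈ G, ∀ x : ↥s, g (x : α) = σ x)
    {s : Finset α} (hs : s.card = k) {a b : α} (hb : b ∉ s) {g : Equiv.Perm α}
    (hg : g ∈ G) (hgs : ∀ x, x ∈ s → g x ∈ s) (hgab : g a = b) :
    ∃ g' ∈ G, (∀ x ∈ s, g' x = x) ∧ g' a = b := by
  have himg : s.image g = s :=
    Finset.eq_of_subset_of_card_le (fun y hy => by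
      obtain ⟨x, hx, rfl⟩ := Finset.mem_image.1 hy
      exact hgs x hx) (by rw [Finset.card_image_of_injective _ g.injective])
  have hiff : ∀ x, g x ∈ s ↔ x ∈ s := fun x => by
    refine ⟨fun h => ?_, hgs x⟩
    conv at h => arg 1; rw [← himg]
    obtain ⟨y, hy, he⟩ := Finset.mem_image.1 h
    exact g.injective he ▸ hy
  let τ : Equiv.Perm α := Equiv.Perm.ofSubtype (g.subtypePerm hiff)
  have hτb : τ b = b := Equiv.Perm.ofSubtype_apply_of_not_mem _ hb
  obtain ⟨h, hh, hhT⟩ := generous_extend hk hgen (insert b s)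
    (by rw [Finset.card_insert_of_notMem hb, hs]) τ fun x hx =>
      Equiv.Perm.ofSubtype_apply_of_not_mem _ fun h => hx (Finset.mem_insert_of_mem h)
  refine ⟨h⁻¹ * g, G.mul_mem (G.inv_mem hh) hg, fun x hx => ?_, ?_⟩
  · have : h x = g x := (hhT x (Finset.mem_insert_of_mem hx)).trans
      (Equiv.Perm.ofSubtype_apply_of_mem _ hx)
    exact (Equiv.symm_apply_eq _).2 this.symm
  · have : h b = b := (hhT b (Finset.mem_insert_self _ _)).trans hτb
    exact (Equiv.symm_apply_eq _).2 (hgab.trans this.symm)

end CfsgLib.PermGroups
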