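import Mathlib.LinearAlgebra.Matrix.GeneralLinearGroup.Defs
import Mathlib.LinearAlgebra.Matrix.ToLinearEquiv
import Mathlib.Algebra.Field.ZMod
import Mathlib.Data.Nat.Bitwise

/-!
Certificates for subgroups of `GL(2, p)` regular on the non-zero vectors.
-/

namespace CfsgLib.PermGroups

open Matrix

/-- A 2×2 matrix over the natural numbers, by rows. -/
abbrev Quad := ℕ × ℕ × ℕ × ℕ

/-- The matrix modulo `p`. -/
def quadMat (p : ℕ) (M : Quad) : Matrix (Fin 2) (Fin 2) (ZMod p) :=
  !![(M.1 : ZMod p), (M.2.1 : ZMod p); (M.2.2.1 : ZMod p), (M.2.2.2 : ZMod p)]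

/-- The product, reduced modulo `p`. -/
def quadMul (p : ℕ) (M N : Quad) : Quad :=
  ((M.1 * N.1 + M.2.1 * N.2.2.1) % p, (M.1 * N.2.1 + M.2.1 * N.2.2.2) % p,
    (M.2.2.1 * N.1 + M.2.2.2 * N.2.2.1) % p, (M.2.2.1 * N.2.1 + M.2.2.2 * N.2.2.2) % p)

/-- Elements built from the identity by right multiplication by generators, along the words. -/
def quadBuild (p : ℕ) (gens : List Quad) : List (ℕ × ℕ) → List Quad → List Quad
  | [], L => L
  | (i, j) :: W, L =>
    quadBuild p gens W (L ++ [quadMul p (L.getD i (1, 0, 0, 1)) (gens.getD j (1, 0, 0, 1))])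

/-- The element is the identity, or has no eigenvalue one, after scaling by `μ`. -/
def quadFree (p μ : ℕ) (M : Quad) : Bool :=
  ((μ * M.1) % p == 1 && (μ * M.2.1) % p == 0 && (μ * M.2.2.1) % p == 0 && (μ * M.2.2.2) % p == 1) ||
    ((((μ * M.1 + (p - 1)) * (μ * M.2.2.2 + (p - 1))) + (p - 1) * (μ * M.2.1) * (μ * M.2.2.1)) % p != 0)

/-- The certificate. -/
def quadCert (p : ℕ) (gens : List Quad) (c m : ℕ) (L : List Quad) : Bool :=
  ((c ^ m) % p == 1) && L.contains (1, 0, 0, 1) &&
  (L.all fun M => gens.all fun g => L.contains (quadMul p M g)) &&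
  ((List.range m).all fun i => L.all fun M => quadFree p (c ^ i % p) M) &&
  ((((List.range m).flatMap fun i => L.map fun M =>
      ((c ^ i % p) * M.1) % p * p + ((c ^ i % p) * M.2.2.1) % p).foldl
        (fun acc n => acc ||| 2 ^ n) 1) == 2 ^ (p * p) - 1)

theorem quadMat_mul (p : ℕ) (M N : Quad) :
    quadMat p (quadMul p M N) = quadMat p M * quadMat p N := by
  simp [quadMat, quadMul, Matrix.mul_fin_two]

theorem quadMat_one (p : ℕ) : quadMat p (1, 0, 0, 1) = 1 := by
  simp [quadMat, Matrix.one_fin_two]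

theorem exists_of_testBit_foldl (l : List ℕ) (acc k : ℕ)
    (h : (l.foldl (fun a n => a ||| 2 ^ n) acc).testBit k = true) :
    acc.testBit k = true ∨ k ∈ l := by
  induction l generalizing acc with
  | nil => exact Or.inl h
  | cons x l ih =>
    rcases ih _ h with h | h
    · rw [Nat.testBit_or, Bool.or_eq_true, Nat.testBit_two_pow, decide_eq_true_iff] at h
      rcases h with h | h
      · exact Or.inl h
      · exact Or.inr (h ▸ List.mem_cons_self)
    · exact Or.inr (List.mem_cons_of_mem _ h)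

/-- The group certified by `quadCert` is regular on the non-zero vectors. -/
theorem regular_of_quadCert {p : ℕ} [Fact p.Prime] (gens : List Quad) (c m : ℕ) (hm : 0 < m)
    (W : List (ℕ × ℕ)) (S : Set (Matrix.GeneralLinearGroup (Fin 2) (ZMod p)))
    (hS : ∀ s ∈ S, (∃ g ∈ gens, (s : Matrix (Fin 2) (Fin 2) (ZMod p)) = quadMat p g) ∨
      (s : Matrix (Fin 2) (Fin 2) (ZMod p)) = (c : ZMod p) • 1)
    (hgen : ∀ g ∈ gens, ∃ s ∈ S, (s : Matrix (Fin 2) (Fin 2) (ZMod p)) = quadMat p g)
    (hc : c = 1 ∨ ∃ s ∈ S, (s : Matrix (Fin 2) (Fin 2) (ZMod p)) = (c : ZMod p) • 1)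
    (hcert : quadCert p gens c m (quadBuild p gens W [(1, 0, 0, 1)]) = true) :
    Nat.card (Subgroup.closure S) = p * p - 1 ∧
      ∀ v w : Fin 2 → ZMod p, v ≠ 0 → w ≠ 0 → ∃! h : Subgroup.closure S,
        Matrix.mulVec ((h : Matrix.GeneralLinearGroup (Fin 2) (ZMod p)) :
          Matrix (Fin 2) (Fin 2) (ZMod p)) v = w := by
  classical
  have hp : p.Prime := Fact.out
  set H := Subgroup.closure S with hH
  set L := quadBuild p gens W [(1, 0, 0, 1)] with hL
  simp only [quadCert, Bool.and_eq_true, beq_iff_eq, List.all_eq_true, List.contains_iff_mem,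
    List.mem_range] at hcert
  obtain ⟨⟨⟨⟨hcm, hone⟩, hclosed⟩, hfree⟩, hmask⟩ := hcert
  -- members of the list belong to the group
  have hbuild : ∀ (W : List (ℕ × ℕ)) (L₀ : List Quad),
      (∀ M ∈ L₀, ∃ h ∈ H, (h : Matrix (Fin 2) (Fin 2) (ZMod p)) = quadMat p M) →
      ∀ M ∈ quadBuild p gens W L₀, ∃ h ∈ H, (h : Matrix (Fin 2) (Fin 2) (ZMod p)) = quadMat p M := by
    intro W
    induction W with
    | nil => intro L₀ h0; exact h0
    | cons x W ih =>
      intro L₀ h0
      refine ih _ fun M hM => ?_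
      rw [List.mem_append, List.mem_singleton] at hM
      rcases hM with hM | hM
      · exact h0 M hM
      · subst hM
        have hi : ∃ h ∈ H, (h : Matrix (Fin 2) (Fin 2) (ZMod p)) =
            quadMat p (L₀.getD x.1 (1, 0, 0, 1)) := by
          rw [List.getD_eq_getElem?_getD]
          cases he : L₀[x.1]? with
          | none => exact ⟨1, H.one_mem, by simp [quadMat_one]⟩
          | some y => exact h0 y (List.mem_of_getElem? he)
        have hj : ∃ h ∈ H, (h : Matrix (Fin 2) (Fin 2) (ZMod p)) =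
            quadMat p (gens.getD x.2 (1, 0, 0, 1)) := by
          rw [List.getD_eq_getElem?_getD]
          cases he : gens[x.2]? with
          | none => exact ⟨1, H.one_mem, by simp [quadMat_one]⟩
          | some y =>
            obtain ⟨s, hs, hse⟩ := hgen y (List.mem_of_getElem? he)
            exact ⟨s, Subgroup.subset_closure hs, hse⟩
        obtain ⟨u, hu, hue⟩ := hi
        obtain ⟨v, hv, hve⟩ := hj
        exact ⟨u * v, H.mul_mem hu hv, by rw [quadMat_mul, Units.val_mul, hue, hve]⟩
  have hLH : ∀ M ∈ L, ∃ h ∈ H, (h : Matrix (Fin 2) (Fin 2) (ZMod p)) = quadMat p M :=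
    hbuild W _ fun M hM => ⟨1, H.one_mem, by
      rw [List.mem_singleton] at hM; rw [hM, quadMat_one]; rfl⟩
  have hcm' : ((c : ZMod p)) ^ m = 1 := by
    rw [← Nat.cast_pow, ← ZMod.natCast_mod, hcm, Nat.cast_one]
  let R : GeneralLinearGroup (Fin 2) (ZMod p) → Prop := fun h =>
    ∃ i < m, ∃ M ∈ L, (h : Matrix (Fin 2) (Fin 2) (ZMod p)) = (c : ZMod p) ^ i • quadMat p M
  -- the group lies in the list, up to scalars
  have hR : ∀ h ∈ H, R h := by
    intro h hh
    have hh' : h ∈ Submonoid.closure S := by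
      rw [← Subgroup.closure_toSubmonoid_of_finite]; exact hh
    induction hh' using Submonoid.closure_induction_right with
    | one => exact ⟨0, hm, (1, 0, 0, 1), hone, by simp [quadMat_one]⟩
    | mul_right x hx s hs ih =>
      obtain ⟨i, hi, M, hM, he⟩ := ih (by
        rw [hH, ← Subgroup.mem_toSubmonoid, Subgroup.closure_toSubmonoid_of_finite]; exact hx)
      rcases hS s hs with ⟨g, hg, hge⟩ | hge
      · exact ⟨i, hi, quadMul p M g, hclosed M hM g hg,
          by rw [Units.val_mul, he, hge, quadMat_mul, Matrix.smul_mul]⟩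
      · refine ⟨(i + 1) % m, Nat.mod_lt _ hm, M, hM, ?_⟩
        rw [Units.val_mul, he, hge, Matrix.mul_smul, mul_one, smul_smul, ← pow_succ',
          ← pow_eq_pow_mod _ hcm']
  -- only the identity fixes a non-zero vector
  have hsemi : ∀ h ∈ H, ∀ v : Fin 2 → ZMod p, v ≠ 0 →
      (h : Matrix (Fin 2) (Fin 2) (ZMod p)) *ᵥ v = v → h = 1 := by
    intro h hh v hv hfix
    obtain ⟨i, hi, M, hM, he⟩ := hR h hh
    have hf := hfree i hi M hM
    rw [quadFree, Bool.or_eq_true] at hf
    rcases hf with hf | hf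
    · simp only [Bool.and_eq_true, beq_iff_eq] at hf
      apply Units.ext
      have key : ∀ a b : ℕ, (c ^ i % p * a) % p = b → ((c : ZMod p) ^ i * a) = b := fun a b hab => by
        rw [← hab]; simp
      rw [he, Units.val_one, Matrix.one_fin_two, quadMat]
      ext r s
      fin_cases r <;> fin_cases s <;>
        simp [key _ _ hf.1.1.1, key _ _ hf.1.1.2, key _ _ hf.1.2, key _ _ hf.2]
    · exfalso
      simp only [bne_iff_ne, ne_eq] at hf
      have hdet : ((h : Matrix (Fin 2) (Fin 2) (ZMod p)) - 1).det ≠ 0 := by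
        rw [he, Matrix.det_fin_two]
        intro h0
        apply hf
        rw [← Nat.dvd_iff_mod_eq_zero, ← ZMod.natCast_eq_zero_iff]
        rw [← h0]
        push_cast [Nat.cast_sub hp.one_lt.le, ZMod.natCast_self, ZMod.natCast_mod]
        simp [quadMat]
        ring
      apply hv
      have h0 : ((h : Matrix (Fin 2) (Fin 2) (ZMod p)) - 1) *ᵥ v = 0 := by
        rw [Matrix.sub_mulVec, hfix, Matrix.one_mulVec, sub_self]
      exact Matrix.eq_zero_of_mulVec_eq_zero hdet h0
  -- every non-zero vector is an image of the first basis vector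
  let e : Fin 2 → ZMod p := ![1, 0]
  have he0 : e ≠ 0 := fun h => one_ne_zero (congrFun h 0)
  have hsurj : ∀ w : Fin 2 → ZMod p, w ≠ 0 → ∃ h ∈ H,
      (h : Matrix (Fin 2) (Fin 2) (ZMod p)) *ᵥ e = w := by
    intro w hw
    have hlt : (w 0).val * p + (w 1).val < p * p := by
      have h1 := ZMod.val_lt (w 0); have h2 := ZMod.val_lt (w 1)
      nlinarith
    have hbit : (2 ^ (p * p) - 1).testBit ((w 0).val * p + (w 1).val) = true := by
      rw [Nat.testBit_two_pow_sub_one]; exact decide_eq_true hlt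
    rw [← hmask] at hbit
    rcases exists_of_testBit_foldl _ _ _ hbit with h1 | h1
    · exfalso
      rw [Nat.testBit_one_eq_true_iff_self_eq_zero] at h1
      apply hw
      have ha : (w 0).val = 0 := by
        have := hp.pos
        rcases Nat.eq_zero_or_pos (w 0).val with h | h
        · exact h
        · nlinarith
      have hb : (w 1).val = 0 := by omega
      funext k
      fin_cases k
      · exact (ZMod.val_eq_zero _).1 ha
      · exact (ZMod.val_eq_zero _).1 hb
    · simp only [List.mem_flatMap, List.mem_range, List.mem_map] at h1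
      obtain ⟨i, -, M, hM, hn⟩ := h1
      obtain ⟨u, hu, hue⟩ := hLH M hM
      obtain ⟨z, hz, hze⟩ : ∃ z ∈ H, (z : Matrix (Fin 2) (Fin 2) (ZMod p)) = (c : ZMod p) ^ i • 1 := by
        rcases hc with rfl | ⟨s, hs, hse⟩
        · exact ⟨1, H.one_mem, by simp⟩
        · exact ⟨s ^ i, H.pow_mem (Subgroup.subset_closure hs) i,
            by rw [Units.val_pow_eq_pow_val, hse, smul_pow, one_pow]⟩
      refine ⟨z * u, H.mul_mem hz hu, ?_⟩
      set A := c ^ i % p * M.1 % p with hA
      set B := c ^ i % p * M.2.2.1 % p with hB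
      have hB' : B < p := Nat.mod_lt _ hp.pos
      have hw1 := ZMod.val_lt (w 1)
      have hdiv : A = (w 0).val ∧ B = (w 1).val := by
        have h1 : A = (w 0).val := by
          rcases Nat.lt_trichotomy A (w 0).val with h | h | h
          · nlinarith
          · exact h
          · nlinarith
        exact ⟨h1, by rw [h1] at hn; omega⟩
      rw [Units.val_mul, hze, hue, Matrix.smul_mul, one_mul]
      funext k
      fin_cases k
      · have : (A : ZMod p) = w 0 := by rw [hdiv.1, ZMod.natCast_zmod_val]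
        rw [hA] at this
        simpa [quadMat, e, Matrix.mulVec, dotProduct, Fin.sum_univ_two] using this
      · have : (B : ZMod p) = w 1 := by rw [hdiv.2, ZMod.natCast_zmod_val]
        rw [hB] at this
        simpa [quadMat, e, Matrix.mulVec, dotProduct, Fin.sum_univ_two] using this
  have hbij : Function.Bijective (fun h : H =>
      (⟨((h : GeneralLinearGroup (Fin 2) (ZMod p)) : Matrix (Fin 2) (Fin 2) (ZMod p)) *ᵥ e,
        fun h0 => he0 (by
          have := congrArg (fun z => (((h : GeneralLinearGroup (Fin 2) (ZMod p))⁻¹ :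
            GeneralLinearGroup (Fin 2) (ZMod p)) : Matrix (Fin 2) (Fin 2) (ZMod p)) *ᵥ z) h0
          simpa [Matrix.mulVec_mulVec] using this)⟩ : {w : Fin 2 → ZMod p // w ≠ 0})) := by
    constructor
    · intro x y hxy
      have h1 := congrArg Subtype.val hxy
      simp only at h1
      have := hsemi _ (H.mul_mem (H.inv_mem y.2) x.2) e he0 (by
        rw [Units.val_mul, ← Matrix.mulVec_mulVec, h1, Matrix.mulVec_mulVec, ← Units.val_mul,
          inv_mul_cancel, Units.val_one, Matrix.one_mulVec])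
      exact Subtype.ext (inv_mul_eq_one.1 this).symm
    · rintro ⟨w, hw⟩
      obtain ⟨h, hh, hhe⟩ := hsurj w hw
      exact ⟨⟨h, hh⟩, Subtype.ext hhe⟩
  refine ⟨?_, fun v w hv hw => ?_⟩
  · rw [Nat.card_congr (Equiv.ofBijective _ hbij), Nat.card_eq_fintype_card,
      Fintype.card_subtype_compl, Fintype.card_subtype_eq, Fintype.card_fun, ZMod.card,
      Fintype.card_fin, pow_two]
  · obtain ⟨x, hx, hxe⟩ := hsurj v hv
    obtain ⟨y, hy, hye⟩ := hsurj w hw
    have hxv : ((x⁻¹ : GeneralLinearGroup (Fin 2) (ZMod p)) : Matrix (Fin 2) (Fin 2) (ZMod p)) *ᵥ v = e := by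
      rw [← hxe, Matrix.mulVec_mulVec, ← Units.val_mul, inv_mul_cancel, Units.val_one,
        Matrix.one_mulVec]
    refine ⟨⟨y * x⁻¹, H.mul_mem hy (H.inv_mem hx)⟩, ?_, fun h hh => Subtype.ext ?_⟩
    · show ((y * x⁻¹ : GeneralLinearGroup (Fin 2) (ZMod p)) : Matrix _ _ _) *ᵥ v = w
      rw [Units.val_mul, ← Matrix.mulVec_mulVec, hxv, hye]
    · have := hsemi _ (H.mul_mem (H.inv_mem (H.mul_mem hy (H.inv_mem hx))) h.2) v hv (by
        rw [Units.val_mul, ← Matrix.mulVec_mulVec, hh, ← hye, ← hxv, Matrix.mulVec_mulVec,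
          Matrix.mulVec_mulVec, ← Units.val_mul, ← Units.val_mul]
        simp)
      exact (inv_mul_eq_one.1 this).symm

end CfsgLib.PermGroups
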