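import Cfsg.Agent.Lib.PermGroups.TwoOrbitSemilinear
import Cfsg.Agent.Lib.PermGroups.Basic
import Cfsg.Agent.Lib.BGTypes.CNQuotient
import Cfsg.Prelude.Def_Perm
import Mathlib.GroupTheory.GroupAction.SubMulAction.Combination

/-!
# Groups homogeneous on pairs but not doubly transitive (Kantor)

The order is odd; granted solvability of groups of odd order they are semiaffine.
-/

set_option autoImplicit false
set_option linter.unusedSectionVars false
set_option linter.style.haveILetI false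

namespace CfsgLib.PermGroups.TwoHomogeneous

open MulAction Cfsg
open scoped Pointwise

universe u

variable {α : Type u} [Fintype α] [DecidableEq α] {G : Subgroup (Equiv.Perm α)}

theorem exists_map_pair (h2 : IsPretransitive G (Set.powersetCard α 2)) {a b c d : α} (hab : a ≠ b)
    (hcd : c ≠ d) : ∃ g : G, (g • a = c ∧ g • b = d) ∨ (g • a = d ∧ g • b = c) := by
  obtain ⟨g, hg⟩ := exists_smul_eq G (⟨{a, b}, Set.powersetCard.mem_iff.mpr (Finset.card_pair hab)⟩ : Set.powersetCard α 2)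
    ⟨{c, d}, Set.powersetCard.mem_iff.mpr (Finset.card_pair hcd)⟩
  have hs : g • ({a, b} : Finset α) = {c, d} := congrArg Subtype.val hg
  simp only [Finset.smul_finset_insert, Finset.smul_finset_singleton] at hs
  have ha : g • a ∈ ({c, d} : Finset α) := hs ▸ Finset.mem_insert_self _ _
  have hb : g • b ∈ ({c, d} : Finset α) := hs ▸ Finset.mem_insert_of_mem (Finset.mem_singleton_self _)
  simp only [Finset.mem_insert, Finset.mem_singleton] at ha hb
  have hne : g • a ≠ g • b := fun h => hab (MulAction.injective g h)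
  refine ⟨g, ?_⟩
  rcases ha with ha | ha <;> rcases hb with hb | hb
  · exact absurd (ha.trans hb.symm) hne
  · exact Or.inl ⟨ha, hb⟩
  · exact Or.inr ⟨ha, hb⟩
  · exact absurd (ha.trans hb.symm) hne

theorem odd_card (h2 : IsPretransitive G (Set.powersetCard α 2))
    (hn2 : ¬ IsMultiplyPretransitive G α 2) : Odd (Nat.card G) := by
  rw [← Nat.not_even_iff_odd]
  intro hev
  apply hn2
  haveI : Fact (Nat.Prime 2) := ⟨Nat.prime_two⟩
  obtain ⟨t, ht⟩ := exists_prime_orderOf_dvd_card' (G := G) 2 hev.two_dvd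
  have htt : t * t = 1 := by rw [← sq, ← ht, pow_orderOf_eq_one]
  obtain ⟨a, ha⟩ : ∃ a, t • a ≠ a := by
    by_contra hall
    push Not at hall
    have : t = 1 := Subtype.ext (Equiv.ext hall)
    rw [this, orderOf_one] at ht
    omega
  have hta : t • t • a = a := by rw [← mul_smul, htt, one_smul]
  rw [is_two_pretransitive_iff]
  have key : ∀ {x y : α}, x ≠ y → ∃ g : G, g • a = x ∧ g • (t • a) = y := by
    intro x y hxy
    obtain ⟨g, ⟨h1, h1'⟩ | ⟨h1, h1'⟩⟩ := exists_map_pair h2 (Ne.symm ha) hxy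
    · exact ⟨g, h1, h1'⟩
    · exact ⟨g * t, by rw [mul_smul]; exact h1', by rw [mul_smul, hta]; exact h1⟩
  intro x y c d hxy hcd
  obtain ⟨g, hg1, hg2⟩ := key hxy
  obtain ⟨g', hg1', hg2'⟩ := key hcd
  exact ⟨g' * g⁻¹, by rw [mul_smul, ← hg1, inv_smul_smul, hg1'],
    by rw [mul_smul, ← hg2, inv_smul_smul, hg2']⟩

theorem isPretransitive_of_pairs (hne : G ≠ ⊥) (h2 : IsPretransitive G (Set.powersetCard α 2)) :
    IsPretransitive G α := by
  obtain ⟨x, hx, hx1⟩ := (G.bot_or_exists_ne_one).resolve_left hne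
  obtain ⟨y, hy⟩ : ∃ y, x y ≠ y := by
    by_contra hall
    push Not at hall
    exact hx1 (Equiv.ext hall)
  refine ⟨fun a b => ?_⟩
  by_cases hab : a = b
  · exact ⟨1, by rw [one_smul, hab]⟩
  obtain ⟨g, ⟨h1, h1'⟩ | ⟨h1, h1'⟩⟩ := exists_map_pair h2 (Ne.symm hy) hab
  · refine ⟨g * ⟨x, hx⟩ * g⁻¹, ?_⟩
    rw [mul_smul, mul_smul, ← h1, inv_smul_smul]
    exact h1'
  · refine ⟨g * ⟨x, hx⟩⁻¹ * g⁻¹, ?_⟩
    rw [mul_smul, mul_smul, ← h1', inv_smul_smul, ← h1]
    exact congrArg (fun z => g • z) (inv_smul_smul (⟨x, hx⟩ : G) y)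

theorem isPreprimitive_of_pairs (hne : G ≠ ⊥) (h2 : IsPretransitive G (Set.powersetCard α 2)) :
    IsPreprimitive G α := by
  haveI := isPretransitive_of_pairs hne h2
  refine ⟨fun {B} hB => ?_⟩
  by_contra hnot
  unfold IsTrivialBlock at hnot
  push Not at hnot
  obtain ⟨hsub, huniv⟩ := hnot
  obtain ⟨a, ha, b, hb, hab⟩ := hsub
  obtain ⟨c, hc⟩ := (Set.ne_univ_iff_exists_notMem B).mp huniv
  have hac : a ≠ c := fun h => hc (h ▸ ha)
  obtain ⟨g, hg⟩ := exists_map_pair h2 hab hac
  have hgB : g • B = B := by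
    refine (isBlock_iff_smul_eq_or_disjoint.mp hB g).resolve_right fun hd => ?_
    rcases hg with ⟨h1, -⟩ | ⟨-, h1⟩
    · exact Set.disjoint_left.mp hd (h1 ▸ Set.smul_mem_smul_set ha) ha
    · exact Set.disjoint_left.mp hd (h1 ▸ Set.smul_mem_smul_set hb) ha
  refine hc (hgB ▸ ?_)
  rcases hg with ⟨-, h1⟩ | ⟨h1, -⟩
  · exact h1 ▸ Set.smul_mem_smul_set hb
  · exact h1 ▸ Set.smul_mem_smul_set ha

/-- Kantor's theorem, granted that groups of odd order are solvable. -/
theorem kantor (hFT : ∀ (X : Type u) [Group X] [Finite X], Odd (Nat.card X) → Group.IsSolvable X)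
    (G : Subgroup (Equiv.Perm α)) (hne : G ≠ ⊥)
    (h2 : IsPretransitive G (Set.powersetCard α 2)) (hn2 : ¬ IsMultiplyPretransitive G α 2) :
    Odd (Nat.card G) ∧ ∃ (p f : ℕ) (_ : Fact p.Prime), p ≠ 2 ∧ Fintype.card α = p ^ f ∧
      p ^ f % 4 = 3 ∧ ∃ e : α ≃ GaloisField p f,
        (∀ g : G, e.symm.trans (((g : Equiv.Perm α)).trans e) ∈ semiaffineGroup (GaloisField p f)) ∧
        ∀ b : GaloisField p f, ∃ g : G, ∀ x : α, e ((g : Equiv.Perm α) x) = e x + b := by
  classical
  have hodd := odd_card h2 hn2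
  refine ⟨hodd, ?_⟩
  haveI hT := isPretransitive_of_pairs hne h2
  haveI hP := isPreprimitive_of_pairs hne h2
  haveI : IsQuasiPreprimitive G α := inferInstance
  haveI : Group.IsSolvable G := hFT G hodd
  haveI : Group.IsSolvable (⊤ : Subgroup G) := Group.isSolvable_of_isSolvable_injective (f := (⊤ : Subgroup G).subtype) (Subgroup.subtype_injective _)
  haveI : Nontrivial G := G.nontrivial_iff_ne_bot.mpr hne
  obtain ⟨p, hpF, A, hAn, hAc, hAp, hA1, -⟩ :=
    CfsgLib.BGTypes.exists_normal_abelian_pGroup_le (H := (⊤ : Subgroup G)) top_ne_bot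
  haveI := hpF
  haveI := hAc
  have hp : p.Prime := hpF.out
  let M : Subgroup G :=
    { carrier := {x | x ∈ A ∧ x ^ p = 1}
      one_mem' := ⟨A.one_mem, one_pow p⟩
      mul_mem' := fun {x y} hx hy => ⟨A.mul_mem hx.1 hy.1, by
        have hxy : Commute x y := congrArg Subtype.val (hAc.is_comm.comm (⟨x, hx.1⟩ : A) ⟨y, hy.1⟩)
        rw [hxy.mul_pow, hx.2, hy.2, one_mul]⟩
      inv_mem' := fun {x} hx => ⟨A.inv_mem hx.1, by rw [inv_pow, hx.2, inv_one]⟩ }
  haveI hMn : M.Normal := ⟨fun x hx g => ⟨hAn.conj_mem x hx.1 g, by rw [conj_pow, hx.2]; group⟩⟩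
  obtain ⟨z, hz⟩ : ∃ z, z ∈ M ∧ z ≠ 1 := by
    have hcard : Nat.card A ≠ 1 := fun h => hA1 (Subgroup.card_eq_one.mp h)
    obtain ⟨k, hk⟩ := IsPGroup.iff_card.mp hAp
    have hk0 : k ≠ 0 := fun h => hcard (by rw [hk, h, pow_zero])
    obtain ⟨z, hz⟩ := exists_prime_orderOf_dvd_card' (G := A) p (hk ▸ dvd_pow_self p hk0)
    refine ⟨z, ⟨z.2, ?_⟩, fun h => ?_⟩
    · rw [← Subgroup.coe_pow, ← hz, pow_orderOf_eq_one, Subgroup.coe_one]
    · rw [show z = 1 from Subtype.ext h, orderOf_one] at hz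
      exact hp.ne_one hz.symm
  have hMfix : fixedPoints M α ≠ Set.univ := fun h => hz.2 (Subtype.ext (Equiv.ext fun y => by
    have : y ∈ fixedPoints M α := h ▸ Set.mem_univ y
    exact this ⟨z, hz.1⟩))
  haveI hMt : IsPretransitive M α := IsQuasiPreprimitive.isPretransitive_of_normal hMfix
  have hMcomm : ∀ x y : M, x * y = y * x := fun x y =>
    Subtype.ext (show (x : G) * y = y * x from
      congrArg Subtype.val (hAc.is_comm.comm (⟨x, x.2.1⟩ : A) ⟨y, y.2.1⟩))
  haveI hMc : IsMulCommutative M := ⟨⟨hMcomm⟩⟩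
  haveI : Nontrivial α := by
    obtain ⟨x, hx, hx1⟩ := (G.bot_or_exists_ne_one).resolve_left hne
    by_contra h
    rw [not_nontrivial_iff_subsingleton] at h
    exact hx1 (Equiv.ext fun y => Subsingleton.elim _ _)
  obtain ⟨o⟩ := (inferInstance : Nonempty α)
  have hreg := semiregular_of_abelian_transitive M hMc o
  have hMinj : ∀ x y : M, x • o = y • o → x = y := fun x y h => by
    have : y⁻¹ * x ∈ stabilizer M o := by rw [mem_stabilizer_iff, mul_smul, h, inv_smul_smul]
    rw [hreg, Subgroup.mem_bot, inv_mul_eq_one] at this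
    exact this.symm
  set n := Fintype.card α with hn
  have hcardM : Nat.card M = n := by rw [card_eq_of_regular M hreg, Nat.card_eq_fintype_card]
  have hMp : IsPGroup p M := fun x => ⟨1, Subtype.ext (by rw [pow_one]; exact x.2.2)⟩
  obtain ⟨f, hf⟩ := IsPGroup.iff_card.mp hMp
  have hnpf : n = p ^ f := hcardM ▸ hf
  have hn2' : 2 ≤ n := Fintype.one_lt_card
  have hp2 : p ≠ 2 := by
    rintro rfl
    have h2d : 2 ∣ Nat.card G := by
      refine Dvd.dvd.trans ?_ (Subgroup.card_subgroup_dvd_card M)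
      rw [hf]
      exact dvd_pow_self 2 fun h => by rw [h, pow_zero] at hnpf; omega
    exact Nat.not_even_iff_odd.mpr hodd (even_iff_two_dvd.mpr h2d)
  have hmod : p ^ f % 4 = 3 := by
    rw [← hnpf]
    have hnodd : n % 2 = 1 := by rw [hnpf]; exact Nat.odd_iff.mp (hp.odd_of_ne_two hp2).pow
    by_contra h3
    have h1 : n % 4 = 1 := by omega
    have hdvd : Nat.card (Set.powersetCard α 2) ∣ Nat.card G := by
      haveI : Nonempty (Set.powersetCard α 2) := by
        obtain ⟨a, b, hab⟩ := exists_pair_ne α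
        exact ⟨⟨{a, b}, Set.powersetCard.mem_iff.mpr (Finset.card_pair hab)⟩⟩
      obtain ⟨s⟩ := ‹Nonempty (Set.powersetCard α 2)›
      haveI := h2
      rw [← MulAction.index_stabilizer_of_transitive G s]
      exact (stabilizer G s).index_dvd_card
    rw [Set.powersetCard.card, Nat.card_eq_fintype_card, ← hn, Nat.choose_two_right] at hdvd
    obtain ⟨m, hm⟩ : ∃ m, n = 4 * m + 1 := ⟨n / 4, by omega⟩
    rw [hm, Nat.add_sub_cancel, show (4 * m + 1) * (4 * m) / 2 = 2 * (m * (4 * m + 1)) by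
      rw [show (4 * m + 1) * (4 * m) = 2 * (m * (4 * m + 1)) * 2 by ring, Nat.mul_div_cancel _ (by norm_num)]] at hdvd
    exact Nat.not_even_iff_odd.mpr hodd (even_iff_two_dvd.mpr ((dvd_mul_right 2 _).trans hdvd))
  letI : CommGroup M := { (inferInstance : Group M) with mul_comm := hMcomm }
  set H := stabilizer G o with hH
  letI : DistribMulAction H (Additive M) :=
    { smul := fun h v => Additive.ofMul (MulAut.conjNormal (h : G) (Additive.toMul v) : M)
      one_smul := fun v => by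
        show Additive.ofMul (MulAut.conjNormal ((1 : H) : G) (Additive.toMul v) : M) = v
        rw [Subgroup.coe_one, map_one, MulAut.one_apply, ofMul_toMul]
      mul_smul := fun g h v => by
        show Additive.ofMul (MulAut.conjNormal ((g * h : H) : G) (Additive.toMul v) : M) =
          Additive.ofMul (MulAut.conjNormal (g : G) (MulAut.conjNormal (h : G) (Additive.toMul v)))
        rw [Subgroup.coe_mul, map_mul, MulAut.mul_apply]
      smul_zero := fun h => congrArg Additive.ofMul (map_one (MulAut.conjNormal (h : G) : MulAut M))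
      smul_add := fun h v w => congrArg Additive.ofMul
        (map_mul (MulAut.conjNormal (h : G) : MulAut M) (Additive.toMul v) (Additive.toMul w)) }
  have hact : ∀ (h : H) (v : Additive M),
      ((Additive.toMul (h • v) : M) : G) = h * ((Additive.toMul v : M) : G) * (h : G)⁻¹ :=
    fun h v => MulAut.conjNormal_apply (h : G) _
  have hcoinc : ∀ (h : H) (v : Additive M),
      (Additive.toMul (h • v) : M) • o = (h : G) • (Additive.toMul v : M) • o := by
    intro h v
    show ((Additive.toMul (h • v) : M) : G) • o = _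
    rw [hact, mul_smul, mul_smul, inv_smul_eq_iff.mpr (mem_stabilizer_iff.mp h.2).symm]
    rfl
  haveI : FaithfulSMul H (Additive M) := ⟨fun {h k} hk => by
    refine Subtype.ext (eq_of_smul_eq_smul (α := α) fun y => ?_)
    obtain ⟨m, rfl⟩ := exists_smul_eq M o y
    have h1 := hcoinc h (Additive.ofMul m)
    have h2' := hcoinc k (Additive.ofMul m)
    rw [hk] at h1
    exact h1.symm.trans h2'⟩
  haveI : Nontrivial (Additive M) := Finite.one_lt_card_iff_nontrivial.mp (by
    rw [Nat.card_congr Additive.toMul, hcardM]; omega)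
  have hflip : ∀ v w : Additive M, v ≠ 0 → w ≠ 0 → ∃ h : H, h • v = w ∨ h • v = -w := by
    intro v w hv hw
    have hne' : ∀ u : Additive M, u ≠ 0 → o ≠ (Additive.toMul u : M) • o := fun u hu h => hu (by
      have := hMinj 1 _ ((one_smul M o).trans h)
      rw [← ofMul_toMul u, ← this, ofMul_one])
    obtain ⟨g, ⟨h1, h1'⟩ | ⟨h1, h1'⟩⟩ := exists_map_pair h2 (hne' v hv) (hne' w hw)
    · refine ⟨⟨g, h1⟩, Or.inl (Additive.toMul.injective (hMinj _ _ ?_))⟩
      rw [hcoinc]
      exact h1'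
    · set w' : M := Additive.toMul w
      have hfix : ((w' : G)⁻¹ * g) • o = o := by rw [mul_smul, h1, inv_smul_eq_iff]; rfl
      refine ⟨⟨(w' : G)⁻¹ * g, hfix⟩, Or.inr (Additive.toMul.injective (hMinj _ _ ?_))⟩
      rw [hcoinc]
      show ((w' : G)⁻¹ * g) • (Additive.toMul v : M) • o = _
      rw [mul_smul, h1']
      rfl
  haveI : Group.IsSolvable H := Group.isSolvable_of_isSolvable_injective (f := H.subtype) (Subgroup.subtype_injective _)
  have hHodd : Odd (Nat.card H) := hodd.of_dvd_nat (Subgroup.card_subgroup_dvd_card H)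
  obtain ⟨e₁, he₁⟩ := exists_semilinear (V := Additive M) (H := H) hHodd hp2
    ((Nat.card_congr Additive.toMul).trans hf)
    (fun v => by
      refine Additive.toMul.injective ?_
      rw [toMul_nsmul, toMul_zero]
      exact Subtype.ext (by rw [Subgroup.coe_pow, Subgroup.coe_one]; exact (Additive.toMul v : M).2.2))
    hflip
  let e₀ : Additive M ≃ α := Equiv.ofBijective (fun v => (Additive.toMul v : M) • o)
    ⟨fun v w h => Additive.toMul.injective (hMinj _ _ h), fun y => by
      obtain ⟨m, hm⟩ := exists_smul_eq M o y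
      exact ⟨Additive.ofMul m, hm⟩⟩
  refine ⟨p, f, hpF, hp2, hnpf, hmod, e₀.symm.trans e₁.toEquiv, fun g => ?_, fun b => ?_⟩
  · obtain ⟨m₀, hm₀⟩ := exists_smul_eq M o (g • o)
    set h : H := ⟨(m₀ : G)⁻¹ * g, by
      rw [mem_stabilizer_iff, mul_smul, ← hm₀]
      exact inv_smul_smul (m₀ : G) o⟩ with hh
    obtain ⟨a, φ, haφ⟩ := he₁ h
    refine ⟨a, e₁ (Additive.ofMul m₀), φ, fun x => ?_⟩
    show e₁ (e₀.symm ((g : Equiv.Perm α) (e₀ (e₁.symm x)))) = _
    have key : (g : Equiv.Perm α) (e₀ (e₁.symm x)) = e₀ (Additive.ofMul m₀ + h • e₁.symm x) := by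
      show g • ((Additive.toMul (e₁.symm x) : M) • o) = (Additive.toMul (Additive.ofMul m₀ + h • e₁.symm x) : M) • o
      rw [toMul_add, toMul_ofMul, mul_smul, hcoinc]
      show _ = (m₀ : G) • ((m₀ : G)⁻¹ * g) • (Additive.toMul (e₁.symm x) : M) • o
      rw [← mul_smul, mul_inv_cancel_left]
    rw [key, Equiv.symm_apply_apply, map_add, haφ, AddEquiv.apply_symm_apply, add_comm]
  · refine ⟨((Additive.toMul (e₁.symm b) : M) : G), fun x => ?_⟩
    obtain ⟨v, rfl⟩ := e₀.surjective x
    show e₁ (e₀.symm ((((Additive.toMul (e₁.symm b) : M) : G) : Equiv.Perm α) (e₀ v))) = e₁ (e₀.symm (e₀ v)) + b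
    have key : (((Additive.toMul (e₁.symm b) : M) : G) : Equiv.Perm α) (e₀ v) = e₀ (e₁.symm b + v) := by
      show (Additive.toMul (e₁.symm b) : M) • (Additive.toMul v : M) • o = _
      rw [← mul_smul]
      rfl
    rw [key, Equiv.symm_apply_apply, Equiv.symm_apply_apply, map_add, AddEquiv.apply_symm_apply, add_comm]

end CfsgLib.PermGroups.TwoHomogeneous
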