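import Cfsg.Agent.Lib.HalfTransitive.PGroup
import Cfsg.Agent.Lib.Hall2.ConjAllSubgroups
import Cfsg.Agent.Lib.Cores.Fitting
import Mathlib.RingTheory.LittleWedderburn
import Mathlib.FieldTheory.Finite.GaloisField

/-!
# Solvable linear groups of odd order, transitive on the lines `{v, -v}`

They act by semilinear maps on a field whose additive group is the space.
-/

set_option autoImplicit false
set_option linter.unusedSectionVars false
set_option linter.style.haveILetI false

namespace CfsgLib.PermGroups.TwoHomogeneous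

open MulAction

variable {V : Type*} [AddCommGroup V] [Finite V] {H : Type*} [Group H] [Finite H]
  [DistribMulAction H V]

theorem card_stabilizer_subgroup_eq {R : Subgroup H} [R.Normal] (hflip : ∀ v w : V, v ≠ 0 → w ≠ 0 →
    ∃ h : H, h • v = w ∨ h • v = -w) (a b : V) (ha : a ≠ 0) (hb : b ≠ 0) :
    Nat.card (stabilizer R a) = Nat.card (stabilizer R b) := by
  obtain ⟨h, hh⟩ := hflip a b ha hb
  have hstab : stabilizer R b = stabilizer R (h • a) := by
    rcases hh with e | e
    · rw [e]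
    · ext r
      rw [mem_stabilizer_iff, mem_stabilizer_iff, e, smul_neg, neg_inj]
  rw [hstab]
  refine Nat.card_congr
    { toFun := fun r => ⟨⟨h * (r : R) * h⁻¹, (inferInstance : R.Normal).conj_mem _ (r : R).2 h⟩, ?_⟩
      invFun := fun r => ⟨⟨h⁻¹ * (r : R) * h, ?_⟩, ?_⟩
      left_inv := fun r => Subtype.ext (Subtype.ext (by simp [mul_assoc]))
      right_inv := fun r => Subtype.ext (Subtype.ext (by simp [mul_assoc])) }
  · have hr : ((r : R) : H) • a = a := r.2
    show (h * (r : R) * h⁻¹) • h • a = h • a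
    rw [mul_smul, inv_smul_smul, mul_smul, hr]
  · simpa using (inferInstance : R.Normal).conj_mem _ (r : R).2 h⁻¹
  · have hr : ((r : R) : H) • h • a = h • a := r.2
    show (h⁻¹ * (r : R) * h) • a = a
    rw [mul_smul, mul_smul, hr, inv_smul_smul]

/-- Every normal nilpotent subgroup is cyclic. -/
theorem isCyclic_fitting [FaithfulSMul H V] (hodd : Odd (Nat.card H)) {p : ℕ} (hp : p.Prime)
    (hV : ∀ v : V, p • v = 0) (hflip : ∀ v w : V, v ≠ 0 → w ≠ 0 → ∃ h : H, h • v = w ∨ h • v = -w) :
    IsCyclic (Cfsg.fittingSubgroup H) := by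
  haveI := CfsgLib.Cores.isNilpotent_fittingSubgroup (G := H)
  refine CfsgLib.Hall2.isCyclic_of_nilpotent_normal fun r hr hd => ?_
  haveI := Fact.mk hr
  have hr2 : r ≠ 2 := by
    rintro rfl
    exact (Nat.not_even_iff_odd.mpr hodd) (even_iff_two_dvd.mpr
      (hd.trans (Subgroup.card_subgroup_dvd_card _)))
  haveI : (Cfsg.pCore r H).Normal :=
    Subgroup.normal_of_characteristic (h := CfsgLib.Cores.pCore_characteristic r H)
  haveI : FaithfulSMul (Cfsg.pCore r H) V :=
    ⟨fun h => Subtype.ext (eq_of_smul_eq_smul (α := V) h)⟩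
  exact (CfsgLib.HalfTransitive.fpf_of_const_stabilizer hr2 (CfsgLib.Cores.isPGroup_pCore r H) hp hV
    (card_stabilizer_subgroup_eq hflip)).1

/-- The semilinear structure. -/
theorem exists_semilinear [FaithfulSMul H V] [Nontrivial V] [Group.IsSolvable H]
    (hodd : Odd (Nat.card H)) {p f : ℕ} [Fact p.Prime] (hp2 : p ≠ 2) (hf : Nat.card V = p ^ f)
    (hV : ∀ v : V, p • v = 0) (hflip : ∀ v w : V, v ≠ 0 → w ≠ 0 → ∃ h : H, h • v = w ∨ h • v = -w) :
    ∃ e : V ≃+ GaloisField p f, ∀ h : H, ∃ (a : (GaloisField p f)ˣ) (φ : GaloisField p f ≃+* GaloisField p f),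
      ∀ v, e (h • v) = a * φ (e v) := by
  classical
  have hp : p.Prime := Fact.out
  set ρ : H →* AddMonoid.End V := DistribMulAction.toAddMonoidEnd H V with hρ
  have hρa : ∀ (h : H) (v : V), ρ h v = h • v := fun h v => rfl
  have hρinv : ∀ h : H, ρ h * ρ h⁻¹ = 1 := fun h => by rw [← map_mul, mul_inv_cancel, map_one]
  have hρinv' : ∀ h : H, ρ h⁻¹ * ρ h = 1 := fun h => by rw [← map_mul, inv_mul_cancel, map_one]
  set F := Cfsg.fittingSubgroup H with hF
  haveI hFn : F.Normal := CfsgLib.Cores.fittingSubgroup_normal H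
  haveI hFc : IsCyclic F := isCyclic_fitting hodd hp hV hflip
  have hFcomm : ∀ x ∈ ρ '' (F : Set H), ∀ y ∈ ρ '' (F : Set H), x * y = y * x := by
    rintro _ ⟨x, hx, rfl⟩ _ ⟨y, hy, rfl⟩
    rw [← map_mul, ← map_mul]
    exact congrArg ρ (congrArg Subtype.val (IsCyclic.commGroup.mul_comm (⟨x, hx⟩ : F) ⟨y, hy⟩))
  set A : Subring (AddMonoid.End V) := Subring.closure (ρ '' (F : Set H)) with hA
  have hconjA : ∀ (h : H), ∀ a ∈ A, ρ h * a * ρ h⁻¹ ∈ A := by
    intro h a ha
    induction ha using Subring.closure_induction with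
    | mem x hx =>
      obtain ⟨t, ht, rfl⟩ := hx
      rw [← map_mul, ← map_mul]
      exact Subring.subset_closure ⟨_, hFn.conj_mem t ht h, rfl⟩
    | zero => rw [mul_zero, zero_mul]; exact A.zero_mem
    | one => rw [mul_one, hρinv]; exact A.one_mem
    | add x y _ _ hx hy => rw [mul_add, add_mul]; exact A.add_mem hx hy
    | neg x _ hx => rw [mul_neg, neg_mul]; exact A.neg_mem hx
    | mul x y _ _ hx hy =>
      have e : ρ h * (x * y) * ρ h⁻¹ = (ρ h * x * ρ h⁻¹) * (ρ h * y * ρ h⁻¹) := by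
        simp only [mul_assoc]
        rw [← mul_assoc (ρ h⁻¹) (ρ h), hρinv', one_mul]
      rw [e]; exact A.mul_mem hx hy
  haveI : IsMulCommutative A := Subring.isMulCommutative_closure hFcomm
  letI : CommRing A := { A.toRing with mul_comm := fun a b => IsMulCommutative.is_comm.comm a b }
  haveI : Finite (AddMonoid.End V) := DFunLike.finite _
  -- the cyclic submodules all have one size
  set orb : V → Set V := fun v => Set.range fun a : A => (a : AddMonoid.End V) v with horb
  have hself : ∀ v, v ∈ orb v := fun v => ⟨1, rfl⟩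
  have hle : ∀ {v u : V}, u ∈ orb v → orb u ⊆ orb v := by
    rintro v _ ⟨a, rfl⟩ _ ⟨b, rfl⟩
    exact ⟨b * a, rfl⟩
  have himg : ∀ (h : H) (v : V), orb (h • v) = (fun w => h • w) '' orb v := by
    intro h v
    refine Set.Subset.antisymm ?_ ?_
    · rintro _ ⟨a, rfl⟩
      refine ⟨(ρ h⁻¹ * a * ρ h⁻¹⁻¹ : AddMonoid.End V) v, ⟨⟨_, hconjA h⁻¹ a a.2⟩, rfl⟩, ?_⟩
      show h • (h⁻¹ • (a : AddMonoid.End V) (h⁻¹⁻¹ • v)) = _
      rw [inv_inv, smul_inv_smul]
    · rintro _ ⟨_, ⟨a, rfl⟩, rfl⟩
      refine ⟨⟨_, hconjA h a a.2⟩, ?_⟩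
      show h • (a : AddMonoid.End V) (h⁻¹ • h • v) = _
      rw [inv_smul_smul]
  have hneg : ∀ v, orb (-v) = orb v := fun v => by
    refine Set.Subset.antisymm (hle ⟨-1, ?_⟩) ?_
    · show -((1 : AddMonoid.End V) v) = -v
      rfl
    · refine hle ⟨-1, ?_⟩
      show -((1 : AddMonoid.End V) (-v)) = v
      exact neg_neg v
  have hsize : ∀ u v : V, u ≠ 0 → v ≠ 0 → Nat.card (orb u) = Nat.card (orb v) := by
    intro u v hu hv
    obtain ⟨h, hh⟩ := hflip u v hu hv
    have : orb v = (fun w => h • w) '' orb u := by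
      rcases hh with e | e
      · rw [← himg, e]
      · rw [← himg, e, hneg]
    rw [this, Nat.card_image_of_injective (MulAction.injective h)]
  have heq : ∀ {u v : V}, u ≠ 0 → v ≠ 0 → u ∈ orb v → orb u = orb v := fun {u v} hu hv h =>
    Set.eq_of_subset_of_ncard_le (hle h)
      (by rw [← Nat.card_coe_set_eq, ← Nat.card_coe_set_eq, hsize v u hv hu]) (Set.toFinite _)
  have hinjA : ∀ (a : A) (v : V), v ≠ 0 → (a : AddMonoid.End V) v = 0 → a = 0 := by
    intro a v hv hav
    refine Subtype.ext (AddMonoidHom.ext fun u => ?_)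
    show (a : AddMonoid.End V) u = 0
    by_contra hau
    have hu : u ≠ 0 := fun h => hau (by rw [h, map_zero])
    have hnot : u ∉ orb v := by
      rintro ⟨b, rfl⟩
      exact hau (show ((a * b : A) : AddMonoid.End V) v = 0 by
        rw [mul_comm]
        show (b : AddMonoid.End V) ((a : AddMonoid.End V) v) = 0
        rw [hav, map_zero])
    have hvu : v + u ≠ 0 := fun h => hnot (by
      rw [eq_neg_of_add_eq_zero_right h, ← hneg]; exact hself _)
    have hz : (a : AddMonoid.End V) (v + u) = (a : AddMonoid.End V) u := by rw [map_add, hav, zero_add]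
    have e1 : orb ((a : AddMonoid.End V) u) = orb (v + u) := heq hau hvu ⟨a, hz⟩
    have e2 : orb ((a : AddMonoid.End V) u) = orb u := heq hau hu ⟨a, rfl⟩
    obtain ⟨b, hb⟩ : v + u ∈ orb u := e2 ▸ e1.symm ▸ hself (v + u)
    have hvu' : v ∈ orb u := ⟨b - 1, by
      show (b : AddMonoid.End V) u - u = v
      rw [show (b : AddMonoid.End V) u = v + u from hb, add_sub_cancel_right]⟩
    exact hnot (heq hv hu hvu' ▸ hself u)
  haveI : Nontrivial A := ⟨⟨0, 1, fun h => by
    obtain ⟨v, hv⟩ := exists_ne (0 : V)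
    exact hv (congrArg (fun a : A => (a : AddMonoid.End V) v) h).symm⟩⟩
  haveI : NoZeroDivisors A := ⟨fun {a b} hab => by
    by_contra hne
    push Not at hne
    obtain ⟨v, hv⟩ := exists_ne (0 : V)
    exact hne.1 (hinjA a ((b : AddMonoid.End V) v) (fun h => hne.2 (hinjA b v hv h))
      (congrArg (fun c : A => (c : AddMonoid.End V) v) hab))⟩
  haveI : IsDomain A := NoZeroDivisors.to_isDomain A
  letI : Fintype A := Fintype.ofFinite A
  letI : Field A := Fintype.fieldOfDomain A
  haveI : CharP A p := by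
    refine (CharP.charP_iff_prime_eq_zero hp).mpr (Subtype.ext (AddMonoidHom.ext fun v => ?_))
    show ((p : AddMonoid.End V)) v = 0
    rw [AddMonoid.End.natCast_apply]
    exact hV v
  letI : Algebra (ZMod p) A := ZMod.algebra A p
  obtain ⟨k, -, hk⟩ := FiniteField.card A p
  -- the Galois action
  let σ : H → (A →+* A) := fun h =>
    { toFun := fun a => ⟨ρ h * a * ρ h⁻¹, hconjA h a a.2⟩
      map_one' := Subtype.ext (by show ρ h * 1 * ρ h⁻¹ = 1; rw [mul_one, hρinv])
      map_mul' := fun a b => Subtype.ext (by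
        show ρ h * (a * b) * ρ h⁻¹ = (ρ h * a * ρ h⁻¹) * (ρ h * b * ρ h⁻¹)
        simp only [mul_assoc]
        rw [← mul_assoc (ρ h⁻¹) (ρ h), hρinv', one_mul])
      map_zero' := Subtype.ext (by show ρ h * 0 * ρ h⁻¹ = 0; rw [mul_zero, zero_mul])
      map_add' := fun a b => Subtype.ext (by
        show ρ h * (a + b) * ρ h⁻¹ = ρ h * a * ρ h⁻¹ + ρ h * b * ρ h⁻¹
        rw [mul_add, add_mul]) }
  have hσcoe : ∀ h a, ((σ h a : A) : AddMonoid.End V) = ρ h * a * ρ h⁻¹ := fun h a => rfl
  have hσmul : ∀ g h a, σ (g * h) a = σ g (σ h a) := fun g h a => Subtype.ext (by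
    rw [hσcoe, hσcoe, hσcoe, mul_inv_rev, map_mul, map_mul]
    simp only [mul_assoc])
  have hσone : ∀ a, σ 1 a = a := fun a => Subtype.ext (by rw [hσcoe, inv_one, map_one, one_mul, mul_one])
  let σE : H → (A ≃ₐ[ZMod p] A) := fun h => AlgEquiv.ofRingEquiv
    (f := { toFun := σ h
            invFun := σ h⁻¹
            left_inv := fun a => by rw [← hσmul, inv_mul_cancel, hσone]
            right_inv := fun a => by rw [← hσmul, mul_inv_cancel, hσone]
            map_mul' := map_mul (σ h)
            map_add' := map_add (σ h) })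
    fun z => RingHom.congr_fun (RingHom.ext_zmod ((σ h).comp (algebraMap (ZMod p) A)) (algebraMap (ZMod p) A)) z
  let Φ : H →* (A ≃ₐ[ZMod p] A) :=
    { toFun := σE
      map_one' := AlgEquiv.ext fun a => hσone a
      map_mul' := fun g h => AlgEquiv.ext fun a => hσmul g h a }
  have hker : Φ.ker ≤ F := by
    intro h hh
    refine CfsgLib.Cores.centralizer_fittingSubgroup_le (G := H) ?_
    rw [Subgroup.mem_centralizer_iff]
    intro t ht
    have ha : (⟨ρ t, Subring.subset_closure ⟨t, ht, rfl⟩⟩ : A) = σ h ⟨ρ t, Subring.subset_closure ⟨t, ht, rfl⟩⟩ :=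
      (AlgEquiv.congr_fun (MonoidHom.mem_ker.mp hh) _).symm
    have := congrArg Subtype.val ha
    rw [hσcoe] at this
    change ρ t = ρ h * ρ t * ρ h⁻¹ at this
    rw [← map_mul, ← map_mul] at this
    have h' : t = h * t * h⁻¹ := eq_of_smul_eq_smul (α := V) fun v => by
      rw [← hρa, ← hρa, this]
    calc t * h = h * t * h⁻¹ * h := by rw [← h']
      _ = h * t := by rw [inv_mul_cancel_right]
  have hHle : Nat.card H ≤ Nat.card F * k := by
    rw [← Φ.ker.card_mul_index, Subgroup.index_ker]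
    refine Nat.mul_le_mul (Subgroup.card_le_of_le hker) ((Subgroup.card_le_card_group _).trans ?_)
    rw [IsGalois.card_aut_eq_finrank, Module.finrank]
    refine le_of_eq ?_
    have h := Module.card_eq_pow_finrank (K := ZMod p) (V := A)
    rw [hk, ZMod.card] at h
    exact (Nat.pow_right_injective hp.two_le h).symm
  have hFle : 2 * Nat.card F ≤ Nat.card A - 1 := by
    let ι : F →* Aˣ :=
      { toFun := fun t => ⟨⟨ρ t, Subring.subset_closure ⟨t, t.2, rfl⟩⟩,
          ⟨ρ (t : H)⁻¹, Subring.subset_closure ⟨_, inv_mem t.2, rfl⟩⟩,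
          Subtype.ext (hρinv _), Subtype.ext (hρinv' _)⟩
        map_one' := Units.ext (Subtype.ext (map_one ρ))
        map_mul' := fun s t => Units.ext (Subtype.ext (map_mul ρ (s : H) (t : H))) }
    have hι : Function.Injective ι := fun s t e => Subtype.ext (eq_of_smul_eq_smul (α := V) fun v =>
      congrArg (fun u : Aˣ => ((u : A) : AddMonoid.End V) v) e)
    have hdvd : Nat.card F ∣ Nat.card Aˣ := by
      rw [Nat.card_congr (MonoidHom.ofInjective hι).toEquiv]
      exact Subgroup.card_subgroup_dvd_card _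
    have hAodd : Odd (Nat.card A) := by
      rw [Nat.card_eq_fintype_card, hk]
      exact (hp.odd_of_ne_two hp2).pow
    rw [Nat.card_units] at hdvd
    have h2 : 2 ∣ Nat.card A - 1 := by obtain ⟨m, hm⟩ := hAodd; exact ⟨m, by omega⟩
    have hcop : Nat.Coprime 2 (Nat.card F) := by
      rw [Nat.coprime_two_left]
      exact hodd.of_dvd_nat (Subgroup.card_subgroup_dvd_card F)
    refine Nat.le_of_dvd ?_ (hcop.mul_dvd_of_dvd_of_dvd h2 hdvd)
    have : 1 < Nat.card A := Finite.one_lt_card
    omega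
  -- one orbit is the whole space
  obtain ⟨v₀, hv₀⟩ := exists_ne (0 : V)
  have hinj : Function.Injective fun a : A => (a : AddMonoid.End V) v₀ := fun a b e =>
    sub_eq_zero.mp (hinjA (a - b) v₀ hv₀ (sub_eq_zero.mpr e))
  have hVle : Nat.card V ≤ 2 * Nat.card H + 1 := by
    have h1 : Nat.card V ≤ Nat.card (Option (H × Bool)) := by
      refine Nat.card_le_card_of_surjective (fun o => match o with
        | none => 0
        | some (h, true) => h • v₀
        | some (h, false) => -(h • v₀)) fun v => ?_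
      by_cases hv : v = 0
      · exact ⟨none, hv.symm⟩
      · obtain ⟨h, hh | hh⟩ := hflip v₀ v hv₀ hv
        · exact ⟨some (h, true), hh⟩
        · exact ⟨some (h, false), by show -(h • v₀) = v; rw [hh, neg_neg]⟩
    rw [Finite.card_option, Nat.card_prod, Nat.card_eq_fintype_card (α := Bool), Fintype.card_bool,
      mul_comm] at h1
    exact h1
  have hsurj : Function.Surjective fun a : A => (a : AddMonoid.End V) v₀ := by
    intro u
    by_contra hno
    push Not at hno
    have hu0 : u ≠ 0 := fun h => hno 0 h.symm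
    have hsq : Nat.card A * Nat.card A ≤ Nat.card V := by
      rw [← Nat.card_prod]
      refine Nat.card_le_card_of_injective
        (fun q : A × A => (q.1 : AddMonoid.End V) v₀ + (q.2 : AddMonoid.End V) u) fun q q' e => ?_
      have hz : ((q.1 - q'.1 : A) : AddMonoid.End V) v₀ = -(((q.2 - q'.2 : A) : AddMonoid.End V) u) := by
        simp only at e
        show (q.1 : AddMonoid.End V) v₀ - (q'.1 : AddMonoid.End V) v₀ =
          -((q.2 : AddMonoid.End V) u - (q'.2 : AddMonoid.End V) u)
        linear_combination (norm := abel) e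
      by_cases h2 : q.2 - q'.2 = 0
      · rw [h2] at hz
        have h1 : q.1 - q'.1 = 0 := hinjA _ v₀ hv₀ (hz.trans neg_zero)
        exact Prod.ext (sub_eq_zero.mp h1) (sub_eq_zero.mp h2)
      · exfalso
        refine hno ((q.2 - q'.2)⁻¹ * -(q.1 - q'.1)) ?_
        show (((q.2 - q'.2)⁻¹ : A) : AddMonoid.End V) (-(((q.1 - q'.1 : A) : AddMonoid.End V) v₀)) = u
        rw [hz, neg_neg]
        exact congrArg (fun c : A => (c : AddMonoid.End V) u) (inv_mul_cancel₀ h2)
    have hQ : k < Nat.card A := by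
      rw [Nat.card_eq_fintype_card, hk]
      exact Nat.lt_pow_self hp.one_lt
    set Q := Nat.card A
    set F' := Nat.card F
    have h2F : 2 * (F' * k) ≤ (Q - 1) * k := by rw [← mul_assoc]; exact Nat.mul_le_mul_right k hFle
    have hQ1 : (Q - 1) * k + Q ≤ Q * Q := by
      obtain ⟨q, hq⟩ : ∃ q, Q = q + 1 := ⟨Q - 1, by omega⟩
      rw [hq, Nat.add_sub_cancel]
      have : q * k ≤ q * q := Nat.mul_le_mul_left q (by omega)
      nlinarith
    have hA2 : 1 < Q := Finite.one_lt_card
    omega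
  let E₀ : A →+ V := AddMonoidHom.mk' (fun a : A => (a : AddMonoid.End V) v₀) (fun a b => rfl)
  let E : A ≃+ V := AddEquiv.ofBijective E₀ ⟨hinj, hsurj⟩
  have hEapp : ∀ a : A, E a = (a : AddMonoid.End V) v₀ := fun a => rfl
  have hkf : Fintype.card A = Nat.card (GaloisField p f) := by
    have hf0 : f ≠ 0 := fun h => by
      rw [h, pow_zero] at hf
      exact absurd hf (Finite.one_lt_card (α := V)).ne'
    rw [GaloisField.card p f hf0, ← hf, ← Nat.card_eq_fintype_card, Nat.card_congr E.toEquiv]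
  letI : Fintype (GaloisField p f) := Fintype.ofFinite _
  let ψ : A ≃+* GaloisField p f := FiniteField.ringEquivOfCardEq
    (hkf.trans Nat.card_eq_fintype_card)
  refine ⟨E.symm.trans ψ.toAddEquiv, fun h => ?_⟩
  obtain ⟨c, hc⟩ := E.surjective (h • v₀)
  have hc0 : ψ c ≠ 0 := by
    intro h0
    rw [map_eq_zero_iff ψ ψ.injective] at h0
    rw [h0, map_zero] at hc
    exact hv₀ ((smul_eq_zero_iff_eq h).mp hc.symm)
  refine ⟨Units.mk0 _ hc0, (ψ.symm.trans (σE h).toRingEquiv).trans ψ, fun v => ?_⟩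
  obtain ⟨a, rfl⟩ := E.surjective v
  simp only [AddEquiv.trans_apply, AddEquiv.symm_apply_apply, Units.val_mk0, RingEquiv.trans_apply]
  show ψ (E.symm (h • E a)) = ψ c * ψ (σ h (ψ.symm (ψ a)))
  rw [RingEquiv.symm_apply_apply, ← map_mul]
  refine congrArg ψ (E.symm_apply_eq.mpr ?_)
  rw [mul_comm, hEapp]
  show h • (a : AddMonoid.End V) v₀ = ((σ h a : A) : AddMonoid.End V) ((c : AddMonoid.End V) v₀)
  rw [← hEapp c, hc, hσcoe]
  show _ = h • (a : AddMonoid.End V) (h⁻¹ • h • v₀)
  rw [inv_smul_smul]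

end CfsgLib.PermGroups.TwoHomogeneous
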