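import Cfsg.Agent.Lib.PermGroups.TwoPWeights
import Cfsg.Agent.Lib.CharTheory.Basic

/-!
# The degree bound from the conjugates of an element of prime order
-/

set_option autoImplicit false
set_option linter.unusedSectionVars false
set_option linter.style.haveILetI false

namespace CfsgLib.PermGroups.TwoP

open Cfsg CfsgLib.CharTheory
open scoped ComplexConjugate

variable {p : ℕ} [hpF : Fact p.Prime] {G : Type*} [Group G] [Fintype G] {x : G}

/-- A set of non-zero residues invariant under a group of multipliers has size divisible by its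
order. -/
theorem dvd_card_of_invariant (U : Subgroup (ZMod p)ˣ) (s : Finset (ZMod p))
    (h0 : ∀ i ∈ s, i ≠ 0) (hinv : ∀ u ∈ U, ∀ i : ZMod p, ((u : ZMod p) * i ∈ s ↔ i ∈ s)) :
    Nat.card U ∣ s.card := by
  classical
  set t : Set (ZMod p)ˣ := {v | (v : ZMod p) ∈ s} with ht
  have hpre : t = (QuotientGroup.mk : (ZMod p)ˣ → (ZMod p)ˣ ⧸ U) ⁻¹' (QuotientGroup.mk '' t) := by
    refine Set.Subset.antisymm (Set.subset_preimage_image _ _) ?_
    rintro v ⟨w, hw, hwv⟩
    obtain ⟨u, hu, rfl⟩ : ∃ u ∈ U, w * u = v := ⟨w⁻¹ * v, QuotientGroup.eq.mp hwv, by group⟩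
    show ((w * u : (ZMod p)ˣ) : ZMod p) ∈ s
    rw [Units.val_mul, mul_comm]
    exact (hinv u hu _).mpr hw
  have hcard : Nat.card t = s.card := by
    rw [← Nat.card_eq_finsetCard s]
    exact Nat.card_congr
      { toFun := fun v => ⟨(v.1 : ZMod p), v.2⟩
        invFun := fun i => ⟨Units.mk0 i.1 (h0 i.1 i.2), i.2⟩
        left_inv := fun v => Subtype.ext (Units.ext rfl)
        right_inv := fun i => rfl }
  rw [← hcard, hpre, Nat.card_congr (QuotientGroup.preimageMkEquivSubgroupProdSet U _), Nat.card_prod]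
  exact dvd_mul_right _ _

/-- The eigenvalues of a character on `x` are invariant under the multipliers of the normaliser. -/
theorem IsWeights.invariant {χ : G → ℂ} (hχ : IsClassFunction G χ)
    {n : ZMod p → ℕ} (h : IsWeights x χ n) (hx : orderOf x = p) {g : G} {u : (ZMod p)ˣ}
    (hg : g * x * g⁻¹ = x ^ (u : ZMod p).val) (j : ZMod p) : n ((u : ZMod p) * j) = n j := by
  have hw : IsWeights x χ (fun i => n ((u : ZMod p) * i)) := by
    intro c
    have hconj : χ (x ^ c.val) = χ (x ^ (((u⁻¹ : (ZMod p)ˣ) : ZMod p) * c).val) := by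
      rw [← hχ (x ^ (((u⁻¹ : (ZMod p)ˣ) : ZMod p) * c).val) g, ← conj_pow, hg, ← pow_mul]
      congr 1
      rw [← pow_val_natCast hx ((u : ZMod p).val * _), Nat.cast_mul, ZMod.natCast_rightInverse _,
        ZMod.natCast_rightInverse _, Units.mul_inv_cancel_left]
    rw [hconj, h]
    refine (Fintype.sum_equiv (Units.mulLeft u) _ _ fun i => ?_).symm
    simp only [Units.mulLeft_apply]
    rw [mul_comm (u : ZMod p) i, mul_assoc, Units.mul_inv_cancel_left]
  exact congrFun (hw.unique h) j

/-- The norm of an irreducible character bounds its values on the conjugates of `⟨x⟩`. -/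
theorem index_mul_sum_normSq_le {χ : G → ℂ} (hχ : IsIrrCharacter G χ) (hx : orderOf x = p) :
    ((Subgroup.normalizer (Subgroup.zpowers x : Set G)).index : ℝ) *
      (∑ c ∈ (Finset.univ : Finset (ZMod p)).erase 0, Complex.normSq (χ (x ^ c.val))) +
      Complex.normSq (χ 1) ≤ (Nat.card G : ℝ) := by
  classical
  set N := Subgroup.normalizer (Subgroup.zpowers x : Set G) with hN
  have htot : ∑ g : G, Complex.normSq (χ g) = (Nat.card G : ℝ) := by
    have h1 := classInner_self_of_isIrr hχ
    simp only [classInner] at h1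
    have hne : (Nat.card G : ℂ) ≠ 0 := Nat.cast_ne_zero.mpr Nat.card_pos.ne'
    rw [inv_mul_eq_iff_eq_mul₀ hne, mul_one] at h1
    rw [← Complex.ofReal_inj, Complex.ofReal_natCast, ← h1, Complex.ofReal_sum]
    exact Finset.sum_congr rfl fun g _ => (Complex.mul_conj _).symm
  rw [← htot, ← Finset.sum_erase_add _ _ (Finset.mem_univ (1 : G))]
  refine add_le_add ?_ le_rfl
  haveI := Fintype.ofFinite (G ⧸ N)
  have hne : ∀ c : ZMod p, c ≠ 0 → x ^ c.val ≠ 1 := fun c hc h => hc ((ZMod.val_eq_zero c).mp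
    (Nat.eq_zero_of_dvd_of_lt (orderOf_dvd_of_pow_eq_one h) (hx ▸ ZMod.val_lt c)))
  set f : (G ⧸ N) × ZMod p → G := fun q => q.1.out * x ^ q.2.val * q.1.out⁻¹ with hf
  have hinj : Set.InjOn f ↑((Finset.univ : Finset (G ⧸ N)) ×ˢ ((Finset.univ : Finset (ZMod p)).erase 0)) := by
    rintro ⟨q, c⟩ hqc ⟨q', c'⟩ hqc' e
    rw [Finset.mem_coe, Finset.mem_product, Finset.mem_erase] at hqc hqc'
    simp only [hf] at e
    set g := q'.out⁻¹ * q.out with hg
    have e' : g * x ^ c.val * g⁻¹ = x ^ c'.val := by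
      have := congrArg (fun y => q'.out⁻¹ * y * q'.out) e
      simp only [mul_assoc, inv_mul_cancel_left, inv_mul_cancel, mul_one] at this
      rw [← this, hg]
      group
    have hgN : g ∈ N := by
      have hgen : ∀ d : ZMod p, d ≠ 0 → Subgroup.zpowers (x ^ d.val) = Subgroup.zpowers x := by
        intro d hd
        refine Subgroup.eq_of_le_of_card_ge
          (Subgroup.zpowers_le.2 ((Subgroup.zpowers x).pow_mem (Subgroup.mem_zpowers x) _)) ?_
        rw [Nat.card_zpowers, Nat.card_zpowers, hx, orderOf_eq_prime (p := p) ?_ (hne d hd)]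
        rw [← pow_mul, mul_comm, pow_mul, show x ^ p = 1 by rw [← hx, pow_orderOf_eq_one], one_pow]
      have hmap : (Subgroup.zpowers x).map (MulAut.conj g).toMonoidHom = Subgroup.zpowers x := by
        conv_lhs => rw [← hgen c hqc.2.1]
        rw [MonoidHom.map_zpowers, MulEquiv.coe_toMonoidHom, MulAut.conj_apply, e', hgen c' hqc'.2.1]
      rw [hN, Subgroup.mem_normalizer_iff_map_conj_eq]
      exact hmap
    have hq : q = q' := by
      rw [← QuotientGroup.out_eq' q, ← QuotientGroup.out_eq' q']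
      exact (QuotientGroup.eq.mpr hgN).symm
    subst hq
    refine Prod.ext rfl (ZMod.val_injective p ?_)
    rw [hg, inv_mul_cancel, one_mul, inv_one, mul_one] at e'
    exact pow_injOn_Iio_orderOf (Set.mem_Iio.mpr (hx ▸ ZMod.val_lt c))
      (Set.mem_Iio.mpr (hx ▸ ZMod.val_lt c')) e'
  have hsub : ((Finset.univ : Finset (G ⧸ N)) ×ˢ ((Finset.univ : Finset (ZMod p)).erase 0)).image f
      ⊆ (Finset.univ : Finset G).erase 1 := by
    intro y hy
    obtain ⟨⟨q, c⟩, hqc, rfl⟩ := Finset.mem_image.mp hy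
    rw [Finset.mem_product, Finset.mem_erase] at hqc
    exact Finset.mem_erase.mpr ⟨fun h => hne c hqc.2.1 (conj_eq_one_iff.mp h), Finset.mem_univ _⟩
  refine le_trans ?_ (Finset.sum_le_sum_of_subset_of_nonneg hsub fun _ _ _ => Complex.normSq_nonneg _)
  rw [Finset.sum_image hinj, Finset.sum_product]
  refine le_of_eq ?_
  rw [Finset.sum_congr rfl fun q _ => Finset.sum_congr rfl fun c _ => by
    rw [show χ (f (q, c)) = χ (x ^ c.val) from IsIrrCharacter.isClassFunction hχ _ _],
    Finset.sum_const, Finset.card_univ, nsmul_eq_mul, ← Nat.card_eq_fintype_card]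
  rfl

/-- A character with simple eigenvalues on `x` has `d (p - d) < p h`. -/
theorem degree_bound {χ : G → ℂ} (hχ : IsIrrCharacter G χ) (hx : orderOf x = p)
    {n : ZMod p → ℕ} (hn : IsWeights x χ n) (hle : ∀ j, n j ≤ 1) {d h : ℕ} (hd : χ 1 = d)
    (hh : Nat.card (Subgroup.normalizer (Subgroup.zpowers x : Set G)) = p * h) :
    d * (p - d) < p * h := by
  classical
  have hb := index_mul_sum_normSq_le hχ hx
  have hd0 : d ≠ 0 := fun h0 => apply_one_ne_zero_of_isIrr hχ (by rw [hd, h0, Nat.cast_zero])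
  have hsum : ∑ c ∈ (Finset.univ : Finset (ZMod p)).erase 0, Complex.normSq (χ (x ^ c.val)) =
      (p : ℝ) * d - (d : ℝ) * d := by
    have h1 := hn.sum_sq hle
    rw [hd, Finset.sum_congr rfl fun c _ => Complex.mul_conj (χ (x ^ c.val)), ← Complex.ofReal_sum,
      ← Complex.ofReal_natCast, ← Complex.ofReal_natCast, ← Complex.ofReal_mul, Complex.ofReal_inj,
      ← Finset.sum_erase_add _ _ (Finset.mem_univ (0 : ZMod p)), ZMod.val_zero, pow_zero, hd,
      Complex.normSq_natCast] at h1
    linarith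
  rw [hsum, hd, Complex.normSq_natCast, ← Subgroup.card_mul_index
    (Subgroup.normalizer (Subgroup.zpowers x : Set G)), hh] at hb
  set i := (Subgroup.normalizer (Subgroup.zpowers x : Set G)).index
  push_cast at hb
  by_contra hcon
  push Not at hcon
  have hdp : d ≤ p := by
    rw [hn.degree, Nat.cast_inj] at hd
    calc d = ∑ j, n j := hd.symm
      _ ≤ ∑ _j : ZMod p, 1 := Finset.sum_le_sum fun j _ => hle j
      _ = p := by simp
  have hR : (p : ℝ) * h ≤ (d : ℝ) * ((p : ℝ) - d) := by
    rw [← Nat.cast_sub hdp, ← Nat.cast_mul, ← Nat.cast_mul]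
    exact_mod_cast hcon
  have hi : (0 : ℝ) ≤ i := Nat.cast_nonneg _
  have hd1 : (0 : ℝ) < (d : ℝ) * d := by
    have : (0 : ℝ) < d := Nat.cast_pos.mpr (Nat.pos_of_ne_zero hd0)
    positivity
  have := mul_le_mul_of_nonneg_left hR hi
  nlinarith

end CfsgLib.PermGroups.TwoP
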