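import Cfsg.Agent.Lib.PermGroups.TwoPWeights
import Cfsg.Agent.Lib.AltGroups.RankMult
import Cfsg.Agent.Lib.CharDegreesTheory.Galois
import Cfsg.Agent.Lib.Coherence.Galois
import Cfsg.Agent.Lib.CharTheory.Linear
import Cfsg.Agent.Lib.CharTheory.Orthogonality

/-!
# The constituents of a transitive action of degree `2p`

An element of order `p` without fixed points forces: rank 2, or a non-principal linear constituent
trivial on it, or one constituent of degree `p` together with Galois conjugate constituents of a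
common degree whose eigenvalues on it partition the primitive `p`-th roots of unity.
-/

set_option autoImplicit false
set_option linter.unusedSectionVars false
set_option linter.style.haveILetI false
set_option maxHeartbeats 800000

namespace CfsgLib.PermGroups.TwoP

open Cfsg CfsgLib.CharTheory MulAction

variable {p : ℕ} [hpF : Fact p.Prime] {G : Type*} [Group G] [Fintype G] {Ω : Type*} [Fintype Ω]
  [MulAction G Ω] {x : G}

/-- Inner products with a permutation character commute with field automorphisms. -/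
theorem classInner_perm_ringAut (σ : ℂ ≃+* ℂ) {χ : G → ℂ} (hχ : IsIrrCharacter G χ) :
    classInner (fun g : G => (Nat.card (fixedBy Ω g) : ℂ)) (fun g => σ (χ g)) =
      σ (classInner (fun g : G => (Nat.card (fixedBy Ω g) : ℂ)) χ) := by
  have h := CfsgLib.Coherence.inner_ringAut (χ := fun g : G => (Nat.card (fixedBy Ω g) : ℂ))
    (IsIrrCharacter.isGeneralizedCharacter hχ) σ
  simpa only [map_natCast] using h

/-- A linear constituent of a transitive action is trivial if a transitive subgroup is in its kernel. -/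
theorem linear_eq_one_of_transitive (μ : G →* ℂˣ) (W : Subgroup G) [IsPretransitive W Ω]
    (hW : W ≤ μ.ker)
    (hin : classInner (fun g : G => (Nat.card (fixedBy Ω g) : ℂ)) (fun g => (μ g : ℂ)) ≠ 0) :
    μ = 1 := by
  classical
  by_contra hμ
  apply hin
  obtain ⟨g₀, hg₀⟩ : ∃ g, μ g ≠ 1 := by
    by_contra hall
    push Not at hall
    exact hμ (MonoidHom.ext hall)
  have hpt : ∀ a : Ω, ∑ g : G, (if g • a = a then (1 : ℂ) else 0) * starRingEnd ℂ (μ g : ℂ) = 0 := by
    intro a
    obtain ⟨w, hw⟩ := exists_smul_eq W (g₀ • a) a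
    obtain ⟨h, hh, hμh⟩ : ∃ h : G, h • a = a ∧ μ h = μ g₀ :=
      ⟨(w : G) * g₀, by rw [mul_smul]; exact hw,
        by rw [map_mul, MonoidHom.mem_ker.mp (hW w.2), one_mul]⟩
    set S := ∑ g : G, (if g • a = a then (1 : ℂ) else 0) * starRingEnd ℂ (μ g : ℂ) with hS
    have e : S = starRingEnd ℂ (μ h : ℂ) * S := by
      rw [hS, Finset.mul_sum]
      refine (Fintype.sum_equiv (Equiv.mulLeft h⁻¹) _ _ fun g => ?_)
      rw [Equiv.coe_mulLeft, mul_smul, inv_smul_eq_iff, hh, map_mul, Units.val_mul, map_mul]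
      have : starRingEnd ℂ (μ h : ℂ) * starRingEnd ℂ (μ h⁻¹ : ℂ) = 1 := by
        rw [← map_mul, ← Units.val_mul, ← map_mul, mul_inv_cancel, map_one, Units.val_one, map_one]
      linear_combination (-((if g • a = a then (1 : ℂ) else 0) * starRingEnd ℂ (μ g : ℂ))) * this
    have hne : starRingEnd ℂ (μ h : ℂ) ≠ 1 := by
      intro hc
      rw [← map_one (starRingEnd ℂ)] at hc
      exact hg₀ (by rw [← hμh]; exact Units.ext ((starRingEnd ℂ).injective hc))
    by_contra h0
    exact hne (mul_right_cancel₀ h0 ((one_mul S).symm ▸ e.symm))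
  have hfix : ∀ g : G, (Nat.card (fixedBy Ω g) : ℂ) = ∑ a : Ω, if g • a = a then (1 : ℂ) else 0 := by
    intro g
    rw [Finset.sum_boole, Nat.card_eq_fintype_card,
      Fintype.card_of_subtype (Finset.univ.filter fun a : Ω => g • a = a) fun a => by simp]
  simp only [classInner, hfix, Finset.sum_mul]
  rw [Finset.sum_comm, Finset.sum_eq_zero fun a _ => hpt a, mul_zero]

theorem exists_coprime_lift {m : ℕ} [NeZero m] (hm : p ∣ m) {u : ZMod p} (hu : u ≠ 0) :
    ∃ k : ℕ, k.Coprime m ∧ (k : ZMod p) = u := by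
  obtain ⟨v, hv⟩ := ZMod.unitsMap_surjective (m := m) hm (Units.mk0 u hu)
  refine ⟨(v : ZMod m).val, ZMod.val_coe_unit_coprime v, ?_⟩
  have := congrArg Units.val hv
  simp only [ZMod.unitsMap_def, Units.coe_map, MonoidHom.coe_coe, ZMod.castHom_apply, Units.val_mk0] at this
  rw [ZMod.natCast_val]
  exact this

variable [IsPretransitive G Ω]

/-- The three possibilities for the permutation character. -/
theorem trichotomy (hx : orderOf x = p) (hΩ : Fintype.card Ω = 2 * p)
    (hfree : ∀ (c : ZMod p) (a : Ω), c ≠ 0 → x ^ c.val • a ≠ a) (a₀ : Ω) :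
    Nat.card (orbitRel.Quotient (stabilizer G a₀) Ω) = 2 ∨
    (∃ μ : G →* ℂˣ, μ ≠ 1 ∧ μ x = 1 ∧
      classInner (fun g : G => (Nat.card (fixedBy Ω g) : ℂ)) (fun g => (μ g : ℂ)) ≠ 0) ∨
    ∃ (χ₀ : IrrCharacter G) (S : Finset (IrrCharacter G)) (n : IrrCharacter G → ZMod p → ℕ) (d : ℕ),
      (∀ χ : IrrCharacter G, IsWeights x (χ : G → ℂ) (n χ)) ∧
      χ₀ ∉ S ∧ trivIrr G ∉ S ∧ χ₀ ≠ trivIrr G ∧ (χ₀ : G → ℂ) 1 = p ∧ n χ₀ 0 = 1 ∧
      (∀ ψ ∈ S, (ψ : G → ℂ) 1 = d ∧ n ψ 0 = 0 ∧ ∀ j, n ψ j ≤ 1) ∧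
      S.card * d = p - 1 ∧
      Nat.card (orbitRel.Quotient (stabilizer G a₀) Ω) = 2 + S.card ∧
      (∀ χ : IrrCharacter G, χ ≠ trivIrr G → χ ≠ χ₀ → χ ∉ S →
        classInner (fun g : G => (Nat.card (fixedBy Ω g) : ℂ)) (χ : G → ℂ) = 0) ∧
      (∀ χ : IrrCharacter G, (χ = trivIrr G ∨ χ = χ₀ ∨ χ ∈ S) →
        classInner (fun g : G => (Nat.card (fixedBy Ω g) : ℂ)) (χ : G → ℂ) = 1) := by
  classical
  haveI := Fintype.ofFinite (IrrCharacter G)
  set π : G → ℂ := fun g => (Nat.card (fixedBy Ω g) : ℂ) with hπ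
  obtain ⟨m, hm, hm1, hdeg, hrank⟩ := CfsgLib.AltGroups.exists_mult (G := G) a₀
  choose n hn using fun χ : IrrCharacter G => exists_weights hx (IsIrrCharacter.isCharacter χ.2)
  have hpG : p ∣ Fintype.card G := hx ▸ orderOf_dvd_card
  -- the multiplicities of each root of unity add up to two
  have htot : ∀ j : ZMod p, ∑ χ, m χ * n χ j = 2 := by
    intro j
    have hexp : π = ∑ χ : IrrCharacter G, (m χ : ℂ) • (χ : G → ℂ) := by
      have := eq_sum_classInner (IsCharacter.isClassFunction (isCharacter_card_fixedBy (G := G) Ω))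
      refine this.trans (Finset.sum_congr rfl fun χ _ => ?_)
      rw [hm χ]
    have h0 : ∀ c : ZMod p, π (x ^ c.val) = if c = 0 then (2 * p : ℂ) else 0 := by
      intro c
      split_ifs with hc
      · rw [hπ, hc, ZMod.val_zero, pow_zero]
        dsimp only
        rw [show fixedBy Ω (1 : G) = Set.univ from Set.ext fun a => by simp, Nat.card_univ,
          Nat.card_eq_fintype_card, hΩ]
        push_cast
        rfl
      · rw [hπ]
        dsimp only
        haveI : IsEmpty (fixedBy Ω (x ^ c.val)) := ⟨fun a => hfree c a.1 hc a.2⟩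
        rw [Nat.card_of_isEmpty, Nat.cast_zero]
    have e : ∑ c : ZMod p, π (x ^ c.val) * omega p (-(j * c)) = 2 * p := by
      simp only [h0, ite_mul, zero_mul, Finset.sum_ite_eq', Finset.mem_univ, if_true, mul_zero,
        neg_zero, AddChar.map_zero_eq_one, mul_one]
    have e2 : (p : ℂ) * ((∑ χ, m χ * n χ j : ℕ) : ℂ) = p * 2 := by
      rw [mul_comm _ (2 : ℂ), ← e]
      simp only [hexp, Finset.sum_apply, Pi.smul_apply, smul_eq_mul, Finset.sum_mul]
      rw [Finset.sum_comm]
      push_cast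
      rw [Finset.mul_sum]
      refine Finset.sum_congr rfl fun χ _ => ?_
      rw [← mul_assoc, mul_comm (p : ℂ) (m χ : ℂ), mul_assoc, ← (hn χ).inversion j, Finset.mul_sum]
      exact Finset.sum_congr rfl fun c _ => by ring
    exact_mod_cast mul_left_cancel₀ (Nat.cast_ne_zero.mpr hpF.out.ne_zero) e2
  have htriv : ∀ j, n (trivIrr G) j = if j = 0 then 1 else 0 := by
    intro j
    have hw : IsWeights x (trivIrr G : G → ℂ) (fun j : ZMod p => if j = 0 then 1 else 0) := by
      intro c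
      rw [trivIrr_apply]
      simp
    exact congrFun ((hn (trivIrr G)).unique hw) j
  set E := (Finset.univ : Finset (IrrCharacter G)).erase (trivIrr G) with hE
  have htot' : ∀ j : ZMod p, ∑ χ ∈ E, m χ * n χ j = if j = 0 then 1 else 2 := by
    intro j
    have := htot j
    rw [← Finset.add_sum_erase _ _ (Finset.mem_univ (trivIrr G)), hm1, htriv, one_mul, ← hE] at this
    split_ifs at this ⊢ <;> omega
  obtain ⟨χ₀, hχ₀E, hχ₀⟩ : ∃ χ₀ ∈ E, m χ₀ * n χ₀ 0 ≠ 0 := by
    refine Finset.exists_ne_zero_of_sum_ne_zero ?_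
    rw [htot' 0, if_pos rfl]; exact one_ne_zero
  have h0split := htot' 0
  rw [if_pos rfl, ← Finset.add_sum_erase _ _ hχ₀E] at h0split
  have hprod : m χ₀ * n χ₀ 0 = 1 := by omega
  have hrest0 : ∀ χ ∈ E.erase χ₀, m χ * n χ 0 = 0 :=
    Finset.sum_eq_zero_iff.mp (by omega)
  have hm0 : m χ₀ = 1 := Nat.eq_one_of_mul_eq_one_right hprod
  have hn0 : n χ₀ 0 = 1 := Nat.eq_one_of_mul_eq_one_left hprod
  -- Galois conjugation
  have hgal : ∀ u : ZMod p, u ≠ 0 → ∀ χ : IrrCharacter G, ∃ χ' : IrrCharacter G,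
      m χ' = m χ ∧ (χ' = trivIrr G → χ = trivIrr G) ∧ ∀ j, n χ' (u * j) = n χ j := by
    intro u hu χ
    obtain ⟨k, hk, hku⟩ := exists_coprime_lift hpG hu
    obtain ⟨σ, hσ⟩ := CfsgLib.CharDegreesTheory.exists_ringAut_complex (Fintype.card G) k hk
    set χ' : IrrCharacter G := ⟨_, CfsgLib.CharDegreesTheory.isIrrCharacter_ringAut σ χ.2⟩ with hχ'
    refine ⟨χ', ?_, fun h => ?_, fun j => ?_⟩
    · have := classInner_perm_ringAut (Ω := Ω) σ χ.2
      rw [hm χ, map_natCast, show classInner π (fun g => σ ((χ : G → ℂ) g)) = (m χ' : ℂ) from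
        hm χ'] at this
      exact_mod_cast this
    · refine Subtype.ext (funext fun g => σ.injective ?_)
      have := congrArg (fun ψ : IrrCharacter G => (ψ : G → ℂ) g) h
      show σ ((χ : G → ℂ) g) = σ ((trivIrr G : G → ℂ) g)
      rw [show σ ((χ : G → ℂ) g) = (trivIrr G : G → ℂ) g from this, trivIrr_apply, map_one]
    · have hw : IsWeights x (χ' : G → ℂ) (fun i : ZMod p => n χ (u⁻¹ * i)) := by
        intro c
        show σ ((χ : G → ℂ) (x ^ c.val)) = _
        rw [hn χ c, map_sum]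
        refine Fintype.sum_equiv (Units.mulLeft (Units.mk0 u hu)) _ _ fun i => ?_
        have hroot : omega p (i * c) ^ Fintype.card G = 1 := by
          obtain ⟨t, ht⟩ := hpG
          rw [ht, pow_mul, omega_pow_eq_one, one_pow]
        rw [map_mul, map_natCast, hσ _ hroot, omega_pow, hku]
        simp only [Units.mulLeft_apply, Units.val_mk0, inv_mul_cancel_left₀ hu, mul_assoc]
      have := congrFun ((hn χ').unique hw) (u * j)
      simpa [inv_mul_cancel_left₀ hu] using this
  have hconst : ∀ j : ZMod p, j ≠ 0 → n χ₀ j = n χ₀ 1 := by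
    intro j hj
    obtain ⟨χ', h1, h2, h3⟩ := hgal j hj χ₀
    have h30 := h3 0
    rw [mul_zero] at h30
    have heq : χ' = χ₀ := by
      by_contra hne
      have := hrest0 χ' (Finset.mem_erase.mpr ⟨hne, Finset.mem_erase.mpr
        ⟨fun h => (Finset.mem_erase.mp hχ₀E).1 (h2 h), Finset.mem_univ _⟩⟩)
      rw [h1, hm0, h30, hn0] at this
      omega
    have := h3 1
    rw [heq, mul_one] at this
    exact this
  set w := n χ₀ 1 with hw
  have hdeg0 : (χ₀ : G → ℂ) 1 = ((1 + (p - 1) * w : ℕ) : ℂ) := by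
    rw [(hn χ₀).degree]
    congr 1
    rw [← Finset.add_sum_erase _ _ (Finset.mem_univ (0 : ZMod p)), hn0,
      Finset.sum_congr rfl fun j hj => hconst j (Finset.ne_of_mem_erase hj), Finset.sum_const,
      Finset.card_erase_of_mem (Finset.mem_univ _), Finset.card_univ, ZMod.card, smul_eq_mul]
  set R := E.erase χ₀ with hR
  have hrest : ∀ j : ZMod p, j ≠ 0 → ∑ χ ∈ R, m χ * n χ j + w = 2 := by
    intro j hj
    have := htot' j
    rw [if_neg hj, ← Finset.add_sum_erase _ _ hχ₀E, hm0, hconst j hj, one_mul, ← hR] at this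
    omega
  have hnz : ∀ χ ∈ R, m χ ≠ 0 → ∃ j, j ≠ 0 ∧ n χ j ≠ 0 := by
    intro χ hχ hmχ
    by_contra hno
    push Not at hno
    have h0 : n χ 0 = 0 := (Nat.mul_eq_zero.mp (hrest0 χ hχ)).resolve_left hmχ
    apply apply_one_ne_zero_of_isIrr χ.2
    rw [(hn χ).degree, Finset.sum_eq_zero fun j _ => ?_, Nat.cast_zero]
    by_cases hj : j = 0
    · rw [hj, h0]
    · exact hno j hj
  have hw2 : w ≤ 2 := by
    have := hrest 1 one_ne_zero
    omega
  interval_cases w
  · -- a linear constituent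
    right; left
    simp only [mul_zero, add_zero, Nat.cast_one] at hdeg0
    obtain ⟨μ, hμ⟩ := exists_hom_of_degree_one χ₀.2 hdeg0
    refine ⟨μ, fun h => (Finset.mem_erase.mp hχ₀E).1 ?_, ?_, ?_⟩
    · exact Subtype.ext (funext fun g => by rw [hμ, h]; rfl)
    · refine Units.ext ?_
      rw [← congrFun hμ x, Units.val_one]
      have := hn χ₀ 1
      rw [pow_val_one hx, ← Finset.add_sum_erase _ _ (Finset.mem_univ (0 : ZMod p)), hn0,
        Finset.sum_eq_zero fun j hj => ?_] at this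
      · simpa using this
      · rw [hconst j (Finset.ne_of_mem_erase hj)]
        simp
    · rw [← hμ, hm χ₀, hm0, Nat.cast_one]
      exact one_ne_zero
  · -- degree `p` and a partition
    right; right
    set S := R.filter fun χ => m χ ≠ 0 with hS
    have hone : ∀ j : ZMod p, j ≠ 0 → ∑ χ ∈ R, m χ * n χ j = 1 := fun j hj => by
      have := hrest j hj; omega
    have hm01 : ∀ χ ∈ S, m χ = 1 ∧ n χ 0 = 0 ∧ ∀ j, n χ j ≤ 1 := by
      intro χ hχ
      obtain ⟨hχR, hmχ⟩ := Finset.mem_filter.mp hχ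
      have hle : ∀ j, j ≠ 0 → m χ * n χ j ≤ 1 := fun j hj =>
        (Finset.single_le_sum (f := fun χ => m χ * n χ j) (fun _ _ => Nat.zero_le _) hχR).trans
          (hone j hj).le
      obtain ⟨j, hj, hnj⟩ := hnz χ hχR hmχ
      have h1 := hle j hj
      have hpos : 0 < m χ := Nat.pos_of_ne_zero hmχ
      have hmone : m χ = 1 := by
        have : m χ * 1 ≤ m χ * n χ j := Nat.mul_le_mul_left _ (Nat.pos_of_ne_zero hnj)
        omega
      have h0 : n χ 0 = 0 := (Nat.mul_eq_zero.mp (hrest0 χ hχR)).resolve_left hmχ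
      refine ⟨hmone, h0, fun i => ?_⟩
      by_cases hi : i = 0
      · rw [hi, h0]; exact Nat.zero_le _
      · have := hle i hi
        rwa [hmone, one_mul] at this
    have hSone : ∀ j : ZMod p, j ≠ 0 → ∑ χ ∈ S, n χ j = 1 := by
      intro j hj
      rw [← hone j hj, hS, Finset.sum_filter]
      refine Finset.sum_congr rfl fun χ hχ => ?_
      by_cases hmχ : m χ = 0
      · simp [hmχ]
      · rw [if_pos hmχ, (hm01 χ (Finset.mem_filter.mpr ⟨hχ, hmχ⟩)).1, one_mul]
    have hsame : ∀ ψ ∈ S, ∀ ψ' ∈ S, ∑ j, n ψ' j = ∑ j, n ψ j := by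
      intro ψ hψ ψ' hψ'
      obtain ⟨j, hj, hnj⟩ := hnz ψ (Finset.mem_filter.mp hψ).1 (Finset.mem_filter.mp hψ).2
      obtain ⟨i, hi, hni⟩ := hnz ψ' (Finset.mem_filter.mp hψ').1 (Finset.mem_filter.mp hψ').2
      obtain ⟨φ, h1, h2, h3⟩ := hgal (i * j⁻¹) (mul_ne_zero hi (inv_ne_zero hj)) ψ
      have hφS : φ ∈ S := by
        refine Finset.mem_filter.mpr ⟨Finset.mem_erase.mpr ⟨fun h => ?_, Finset.mem_erase.mpr
          ⟨fun h => ?_, Finset.mem_univ _⟩⟩, by rw [h1]; exact (Finset.mem_filter.mp hψ).2⟩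
        · have := h3 0
          rw [mul_zero, h, hn0, (hm01 ψ hψ).2.1] at this
          omega
        · exact (Finset.mem_erase.mp (Finset.mem_erase.mp (Finset.mem_filter.mp hψ).1).2).1 (h2 h)
      have heq : φ = ψ' := by
        by_contra hne
        have hφi : n φ i ≠ 0 := by
          have := h3 j
          rw [mul_assoc, inv_mul_cancel₀ hj, mul_one] at this
          rw [this]; exact hnj
        have hsub : ∑ χ ∈ ({φ, ψ'} : Finset (IrrCharacter G)), n χ i ≤ ∑ χ ∈ S, n χ i :=
          Finset.sum_le_sum_of_subset (by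
            intro χ hχ
            simp only [Finset.mem_insert, Finset.mem_singleton] at hχ
            rcases hχ with rfl | rfl <;> assumption)
        rw [Finset.sum_pair hne, hSone i hi] at hsub
        omega
      rw [← heq]
      exact (Fintype.sum_equiv (Units.mulLeft (Units.mk0 _ (mul_ne_zero hi (inv_ne_zero hj)))) _ _
        fun t => (h3 t).symm).symm
    obtain ⟨d, hd⟩ : ∃ d, ∀ ψ ∈ S, ∑ j, n ψ j = d := by
      rcases S.eq_empty_or_nonempty with h | ⟨ψ₀, hψ₀⟩
      · exact ⟨0, fun ψ hψ => by simp [h] at hψ⟩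
      · exact ⟨_, fun ψ hψ => hsame ψ₀ hψ₀ ψ hψ⟩
    have hout : ∀ χ : IrrCharacter G, χ ≠ trivIrr G → χ ≠ χ₀ → χ ∉ S → m χ = 0 := by
      intro χ h1 h2 h3
      by_contra h
      exact h3 (Finset.mem_filter.mpr
        ⟨Finset.mem_erase.mpr ⟨h2, Finset.mem_erase.mpr ⟨h1, Finset.mem_univ _⟩⟩, h⟩)
    have hχ₀t := (Finset.mem_erase.mp hχ₀E).1
    refine ⟨χ₀, S, n, d, hn, fun h => (Finset.mem_erase.mp (Finset.mem_filter.mp h).1).1 rfl,
      fun h => (Finset.mem_erase.mp (Finset.mem_erase.mp (Finset.mem_filter.mp h).1).2).1 rfl,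
      hχ₀t, ?_, hn0,
      fun ψ hψ => ⟨by rw [(hn ψ).degree, hd ψ hψ], (hm01 ψ hψ).2⟩, ?_, ?_,
      fun χ h1 h2 h3 => by rw [hm χ, hout χ h1 h2 h3, Nat.cast_zero], fun χ hχ => ?_⟩
    · rw [hdeg0, mul_one, Nat.add_sub_cancel' hpF.out.one_lt.le]
    · rw [← smul_eq_mul, ← Finset.sum_const, ← Finset.sum_congr rfl hd, Finset.sum_comm,
        ← Finset.add_sum_erase _ _ (Finset.mem_univ (0 : ZMod p)),
        Finset.sum_eq_zero fun ψ hψ => (hm01 ψ hψ).2.1, zero_add,
        Finset.sum_congr rfl fun j hj => hSone j (Finset.ne_of_mem_erase hj), Finset.sum_const,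
        Finset.card_erase_of_mem (Finset.mem_univ _), Finset.card_univ, ZMod.card, smul_eq_mul,
        mul_one]
    · rw [hrank, ← Finset.add_sum_erase _ _ (Finset.mem_univ (trivIrr G)), hm1,
        ← Finset.add_sum_erase _ _ hχ₀E, hm0,
        ← Finset.sum_filter_of_ne (s := R) (p := fun χ => m χ ≠ 0) fun χ _ h e => h (by simp [e]),
        ← hS, Finset.sum_congr rfl fun χ hχ => by rw [(hm01 χ hχ).1], Finset.sum_const, smul_eq_mul,
        mul_one]
      omega
    · rw [hm χ]
      rcases hχ with rfl | rfl | h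
      · rw [hm1, Nat.cast_one]
      · rw [hm0, Nat.cast_one]
      · rw [(hm01 χ h).1, Nat.cast_one]
  · -- rank two
    left
    rw [hrank, ← Finset.add_sum_erase _ _ (Finset.mem_univ (trivIrr G)), hm1,
      ← Finset.add_sum_erase _ _ hχ₀E, hm0]
    have : ∀ χ ∈ R, m χ = 0 := by
      intro χ hχ
      by_contra hmχ
      obtain ⟨j, hj, hnj⟩ := hnz χ hχ hmχ
      have h1 := hrest j hj
      have h2 := Finset.single_le_sum (f := fun χ => m χ * n χ j) (fun _ _ => Nat.zero_le _) hχ
      have : m χ * n χ j ≠ 0 := mul_ne_zero hmχ hnj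
      omega
    rw [← hR, Finset.sum_eq_zero fun χ hχ => by rw [this χ hχ, zero_mul]]
    norm_num

end CfsgLib.PermGroups.TwoP
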