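import Mathlib

/-!
# Primitive groups of degree `2p`: the elements of order `p`

If such a group is not doubly transitive, the elements of order `p` have no fixed point, the order
is not divisible by `p ^ 2`, and the normaliser of a Sylow `p`-subgroup inside the even part acts
as a group of multipliers on two copies of `ZMod p`.
-/

set_option autoImplicit false
set_option linter.unusedSectionVars false
set_option linter.style.haveILetI false

namespace CfsgLib.PermGroups.TwoP

open MulAction

section NotTwoTransitive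

variable {α : Type*} [Fintype α] [DecidableEq α] {p : ℕ} [hpF : Fact p.Prime]
  {G : Subgroup (Equiv.Perm α)}

/-- In a primitive group of degree `2p` that is not doubly transitive, an element of order `p`
fixes no point. -/
theorem smul_ne_of_orderOf (hα : Fintype.card α = 2 * p) (hG : IsPreprimitive G α)
    (h2 : ¬ IsMultiplyPretransitive G α 2) {g : G} (hg : orderOf g = p) (a : α) : g • a ≠ a := by
  classical
  intro hfix
  have hp := hpF.out
  set s : Equiv.Perm α := (g : Equiv.Perm α) with hs
  have hord : orderOf s = p := (Subgroup.orderOf_coe g).trans hg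
  obtain ⟨n, hn⟩ := Equiv.Perm.cycleType_prime_order (hord ▸ hp)
  have hcard : s.support.card = (n + 1) * p := by
    rw [← Equiv.Perm.sum_cycleType, hn, Multiset.sum_replicate, smul_eq_mul, hord]
  have hlt : s.support.card < 2 * p := by
    rw [← hα]
    refine Finset.card_lt_univ_of_notMem (x := a) ?_
    rw [Equiv.Perm.notMem_support]
    exact hfix
  have hn0 : n = 0 := by
    rw [hcard] at hlt
    have := Nat.lt_of_mul_lt_mul_right hlt
    omega
  have hsupp : s.support.card = p := by rw [hcard, hn0]; simp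
  have hcyc : s.IsCycle := by
    rw [← Equiv.Perm.card_cycleType_eq_one, hn, hn0]
    simp
  have hsc : Set.ncard ((s.support : Set α)ᶜ) = (p - 1) + 1 := by
    have := Set.ncard_add_ncard_compl (s.support : Set α)
    rw [Set.ncard_coe_finset, hsupp, Nat.card_eq_fintype_card, hα] at this
    have := hp.two_le
    omega
  haveI := Equiv.Perm.isPretransitive_of_isCycle_mem hcyc g.2
  haveI : IsPreprimitive (fixingSubgroup G (s.support : Set α)ᶜ)
      (SubMulAction.ofFixingSubgroup G (s.support : Set α)ᶜ) := by
    apply IsPreprimitive.of_prime_card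
    convert hp
    rw [Nat.card_eq_fintype_card, Fintype.card_subtype, ← hsupp]
    apply congr_arg
    ext x
    simp [SubMulAction.mem_ofFixingSubgroup_iff]
  have hmp := hG.isMultiplyPreprimitive (s := (s.support : Set α)ᶜ) (n := p - 1) hsc
    (by rw [Nat.card_eq_fintype_card, hα]; have := hp.two_le; omega) inferInstance
  haveI : IsMultiplyPretransitive G α (p - 1 + 2) := hmp.isMultiplyPretransitive
  exact h2 (isMultiplyPretransitive_of_le (n := p - 1 + 2) (by omega)
    (by rw [Nat.card_eq_fintype_card, hα]; have := hp.two_le; omega))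

/-- The order is not divisible by `p ^ 2`. -/
theorem not_sq_dvd (hp3 : p ≠ 2) (hα : Fintype.card α = 2 * p) (hG : IsPreprimitive G α)
    (h2 : ¬ IsMultiplyPretransitive G α 2) : ¬ p ^ 2 ∣ Nat.card G := by
  intro hdvd
  have hp := hpF.out
  obtain ⟨Q, hQ⟩ := Sylow.exists_subgroup_card_pow_prime p hdvd
  haveI : Nonempty α := Fintype.card_pos_iff.mp (by rw [hα]; have := hp.pos; omega)
  obtain ⟨a⟩ := ‹Nonempty α›
  have hbot : stabilizer Q a = ⊥ := by
    by_contra hne
    have h1 : Nat.card (stabilizer Q a) ≠ 1 := fun h => hne (Subgroup.card_eq_one.mp h)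
    have h2' : Nat.card (stabilizer Q a) ∣ p ^ 2 := hQ ▸ Subgroup.card_subgroup_dvd_card _
    obtain ⟨k, hk, hk'⟩ := (Nat.dvd_prime_pow hp).mp h2'
    have hk0 : k ≠ 0 := fun h => h1 (by rw [hk', h, pow_zero])
    obtain ⟨q, hq⟩ := exists_prime_orderOf_dvd_card' (G := stabilizer Q a) p
      (by rw [hk']; exact dvd_pow_self p hk0)
    have hq' : orderOf ((q : Q) : G) = p := by
      rw [Subgroup.orderOf_coe, Subgroup.orderOf_coe, hq]
    exact smul_ne_of_orderOf hα hG h2 hq' a q.2
  have := Nat.card_le_card_of_injective (fun q : Q => q • a) fun q q' e => by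
    have hmem : q'⁻¹ * q ∈ stabilizer Q a := by
      rw [mem_stabilizer_iff, mul_smul]
      show q'⁻¹ • q • a = a
      rw [show q • a = q' • a from e, inv_smul_smul]
    rw [hbot, Subgroup.mem_bot, inv_mul_eq_one] at hmem
    exact hmem.symm
  rw [hQ, Nat.card_eq_fintype_card, hα] at this
  have : p * p ≤ 2 * p := by rwa [← sq]
  have := Nat.le_of_mul_le_mul_right this hp.pos
  have := hp.two_le
  omega

end NotTwoTransitive

section Coordinates

variable {G : Type*} [Group G] {Ω : Type*} [MulAction G Ω] [Fintype Ω] {p : ℕ} [hpF : Fact p.Prime]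
  {x : G}

theorem pow_val_natCast (hx : orderOf x = p) (c : ℕ) : x ^ ((c : ZMod p).val) = x ^ c := by
  rw [ZMod.val_natCast]
  conv_rhs => rw [← pow_mod_orderOf x, hx]

theorem pow_val_add (hx : orderOf x = p) (i j : ZMod p) :
    x ^ (i + j).val = x ^ i.val * x ^ j.val := by
  rw [ZMod.val_add, ← pow_add]
  conv_lhs => rw [← pow_mod_orderOf x]
  conv_rhs => rw [← pow_mod_orderOf x]
  rw [hx, Nat.mod_mod]

theorem pow_val_one (hx : orderOf x = p) : x ^ (1 : ZMod p).val = x := by
  haveI : Fact (1 < p) := ⟨hpF.out.one_lt⟩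
  rw [ZMod.val_one, pow_one]

/-- Coordinates for the action of an element of order `p` without fixed points on `2p` points. -/
theorem exists_coord (hΩ : Fintype.card Ω = 2 * p) (hx : orderOf x = p)
    (hfree : ∀ (i : ZMod p) (a : Ω), x ^ i.val • a = a → i = 0) :
    ∃ e : Bool × ZMod p ≃ Ω, ∀ b i, x • e (b, i) = e (b, i + 1) := by
  classical
  haveI : Nonempty Ω := Fintype.card_pos_iff.mp (by rw [hΩ]; have := hpF.out.pos; omega)
  obtain ⟨a₁⟩ := ‹Nonempty Ω›
  obtain ⟨a₂, ha₂⟩ : ∃ a₂, ∀ i : ZMod p, x ^ i.val • a₁ ≠ a₂ := by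
    by_contra hne
    push Not at hne
    have := Fintype.card_le_of_surjective _ hne
    rw [hΩ, ZMod.card] at this
    have := hpF.out.pos
    omega
  let f : Bool × ZMod p → Ω := fun q => x ^ q.2.val • (if q.1 then a₂ else a₁)
  have hshift : ∀ (i j : ZMod p) (a : Ω), x ^ i.val • x ^ j.val • a = x ^ (i + j).val • a := by
    intro i j a
    rw [← mul_smul, ← pow_val_add hx]
  have hinj : Function.Injective f := by
    rintro ⟨b, i⟩ ⟨b', j⟩ e
    have e' : x ^ (i - j).val • (if b then a₂ else a₁) = (if b' then a₂ else a₁) := by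
      have := congrArg (fun a => x ^ (-j).val • a) e
      simp only [f, hshift, neg_add_cancel, ZMod.val_zero, pow_zero, one_smul] at this
      rw [← this, add_comm, sub_eq_add_neg]
    cases b <;> cases b' <;> simp only [Bool.false_eq_true, if_false, if_true] at e'
    · rw [sub_eq_zero.mp (hfree _ _ e')]
    · exact absurd e' (ha₂ _)
    · refine absurd ?_ (ha₂ (-(i - j)))
      rw [← e', hshift, neg_add_cancel, ZMod.val_zero, pow_zero, one_smul]
    · rw [sub_eq_zero.mp (hfree _ _ e')]
  have hbij : Function.Bijective f := (Fintype.bijective_iff_injective_and_card f).mpr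
    ⟨hinj, by rw [Fintype.card_prod, Fintype.card_bool, ZMod.card, hΩ]⟩
  refine ⟨Equiv.ofBijective f hbij, fun b i => ?_⟩
  show x • f (b, i) = f (b, i + 1)
  simp only [f]
  rw [← hshift, pow_val_one hx, ← mul_smul, ← mul_smul, ← pow_succ', ← pow_succ]

variable {e : Bool × ZMod p ≃ Ω}

theorem pow_smul_coord (he : ∀ b i, x • e (b, i) = e (b, i + 1)) (c : ℕ) (b : Bool) (i : ZMod p) :
    x ^ c • e (b, i) = e (b, i + c) := by
  induction c with
  | zero => simp
  | succ c ih => rw [pow_succ', mul_smul, ih, he, Nat.cast_succ, add_assoc]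

theorem pow_val_smul_coord (he : ∀ b i, x • e (b, i) = e (b, i + 1)) (c : ZMod p) (b : Bool)
    (i : ZMod p) : x ^ c.val • e (b, i) = e (b, i + c) := by
  rw [pow_smul_coord he, ZMod.natCast_rightInverse c]

/-- A normalising element permutes the two orbits and multiplies. -/
theorem smul_coord_of_conj (he : ∀ b i, x • e (b, i) = e (b, i + 1)) {g : G} {m : ℕ}
    (hg : g * x * g⁻¹ = x ^ m) (b : Bool) (i : ZMod p) :
    g • e (b, i) = e ((e.symm (g • e (b, 0))).1, m * i + (e.symm (g • e (b, 0))).2) := by
  have h1 : ∀ c : ℕ, g * x ^ c = x ^ (m * c) * g := by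
    intro c
    rw [pow_mul, ← hg, conj_pow, inv_mul_cancel_right]
  calc g • e (b, i) = g • x ^ i.val • e (b, 0) := by rw [pow_val_smul_coord he, zero_add]
    _ = x ^ (m * i.val) • g • e (b, 0) := by rw [← mul_smul, h1, mul_smul]
    _ = x ^ (m * i.val) • e ((e.symm (g • e (b, 0))).1, (e.symm (g • e (b, 0))).2) := by
        rw [Prod.mk.eta, Equiv.apply_symm_apply]
    _ = _ := by rw [pow_smul_coord he, Nat.cast_mul, ZMod.natCast_rightInverse i, add_comm]

end Coordinates

section Parity

variable {p : ℕ} [hpF : Fact p.Prime]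

theorem sign_addRight (hp3 : p ≠ 2) (c : ZMod p) : Equiv.Perm.sign (Equiv.addRight c) = 1 := by
  have hpow : ∀ k : ℕ, (Equiv.addRight c) ^ k = Equiv.addRight ((k : ZMod p) * c) := by
    intro k
    induction k with
    | zero => ext i; simp
    | succ k ih => ext i; rw [pow_succ', ih]; simp [add_mul, add_assoc]
  have h1 := congrArg Equiv.Perm.sign (hpow p)
  rw [map_pow, ZMod.natCast_self, zero_mul, show Equiv.addRight (0 : ZMod p) = 1 from
    Equiv.ext fun i => by simp, map_one] at h1
  rcases Int.units_eq_one_or (Equiv.Perm.sign (Equiv.addRight c)) with h | h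
  · exact h
  · exfalso
    rw [h, (hpF.out.odd_of_ne_two hp3).neg_one_pow] at h1
    exact absurd h1 (by decide)

/-- An affine permutation exchanging two copies of `ZMod p` is odd. -/
theorem sign_swap_affine (hp3 : p ≠ 2) (π : Equiv.Perm (Bool × ZMod p)) (m : (ZMod p)ˣ)
    (c : Bool → ZMod p) (hπ : ∀ b i, π (b, i) = (!b, (m : ZMod p) * i + c b)) :
    Equiv.Perm.sign π = -1 := by
  classical
  let A : Bool → Equiv.Perm (ZMod p) := fun b =>
    (Equiv.addRight (c b)) * (Units.mulLeft m)
  let S : Equiv.Perm (Bool × ZMod p) := Equiv.prodCongrLeft fun _ => Equiv.swap false true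
  have e : π = S * Equiv.prodCongrRight A := by
    refine Equiv.ext fun ⟨b, i⟩ => ?_
    rw [hπ]
    cases b <;> simp [S, A]
  have hS : Equiv.Perm.sign S = -1 := by
    rw [Equiv.Perm.sign_prodCongrLeft, Equiv.Perm.sign_swap (by decide : false ≠ true),
      Finset.prod_const, Finset.card_univ, ZMod.card, (hpF.out.odd_of_ne_two hp3).neg_one_pow]
  rw [e, map_mul, hS, Equiv.Perm.sign_prodCongrRight, Fintype.prod_bool]
  simp only [A, map_mul, sign_addRight hp3, one_mul, Int.units_mul_self, mul_one]

end Parity

end CfsgLib.PermGroups.TwoP
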