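import Cfsg.Agent.Lib.PermGroups.TwoPWeights
import Cfsg.Agent.Lib.PermGroups.TwoPBound
import Cfsg.Agent.Lib.AltGroups.RankMult
import Cfsg.Agent.Lib.CharTheory.Orthogonality

/-!
# The suborbits: the common fixed point of the multipliers is fixed by the stabiliser

The degree-`p` constituent has eigenvalue `2 A - k` on the orbital kernels, `A` counting the
neighbours in the first orbit of `⟨x⟩`; multiplicity `p` bounds these eigenvalues, so every
suborbit except that of the second centre meets at least two orbits of the multipliers.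
-/

set_option autoImplicit false
set_option linter.unusedSectionVars false
set_option linter.style.haveILetI false
set_option maxHeartbeats 800000

namespace CfsgLib.PermGroups.TwoP

open Cfsg CfsgLib.CharTheory CfsgLib.AltGroups MulAction
open scoped ComplexConjugate

variable {p : ℕ} [hpF : Fact p.Prime] {G : Type*} [Group G] [Fintype G] {Ω : Type*} [Fintype Ω]
  [MulAction G Ω] [IsPretransitive G Ω] {x : G}

theorem isClassFunction_tau {L : Ω → Ω → ℂ} (hL : InvKernel G L) : IsClassFunction G (tau G L) := by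
  intro g h
  refine (Fintype.sum_equiv (MulAction.toPerm h) _ _ fun y => ?_).symm
  rw [MulAction.toPerm_apply, mul_smul, mul_smul, inv_smul_smul, hL]

theorem sum_col_eq {L : Ω → Ω → ℂ} (hL : InvKernel G L) (a : Ω) :
    ∑ y, L y a = ∑ y, L a y := by
  have hrow : ∀ y, ∑ z, L y z = ∑ z, L a z := fun y => by
    obtain ⟨g, rfl⟩ := exists_smul_eq G a y
    exact (Fintype.sum_equiv (MulAction.toPerm g) _ _ fun z => (hL g a z).symm).symm
  have hcol : ∀ y, ∑ z, L z y = ∑ z, L z a := fun y => by
    obtain ⟨g, rfl⟩ := exists_smul_eq G a y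
    exact (Fintype.sum_equiv (MulAction.toPerm g) _ _ fun z => (hL g z a).symm).symm
  have h := Finset.sum_comm (s := (Finset.univ : Finset Ω)) (t := (Finset.univ : Finset Ω)) (f := L)
  rw [Finset.sum_congr rfl fun y _ => hrow y, Finset.sum_congr rfl fun y _ => hcol y,
    Finset.sum_const, Finset.sum_const, Finset.card_univ, nsmul_eq_mul, nsmul_eq_mul] at h
  exact (mul_left_cancel₀ (Nat.cast_ne_zero.mpr (Fintype.card_pos_iff.mpr ⟨a⟩).ne') h).symm

theorem sum_coord (e : Bool × ZMod p ≃ Ω) (f : Ω → ℂ) :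
    ∑ y, f y = (∑ i, f (e (true, i))) + ∑ i, f (e (false, i)) := by
  rw [← e.sum_comp f, Fintype.sum_prod_type, Fintype.sum_bool]

/-- The eigenvalue of an invariant kernel on the constituent with a fixed vector. -/
theorem classInner_tau_fixed (e : Bool × ZMod p ≃ Ω) (he : ∀ b i, x • e (b, i) = e (b, i + 1))
    [Fintype (IrrCharacter G)] (n : IrrCharacter G → ZMod p → ℕ)
    (hn : ∀ χ : IrrCharacter G, IsWeights x (χ : G → ℂ) (n χ)) {χ₀ : IrrCharacter G}
    (h0t : χ₀ ≠ trivIrr G) (hn0 : n χ₀ 0 = 1)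
    (hother : ∀ χ : IrrCharacter G, χ ≠ trivIrr G → χ ≠ χ₀ → n χ 0 = 0 ∨
      classInner (fun g : G => (Nat.card (fixedBy Ω g) : ℂ)) (χ : G → ℂ) = 0)
    {L : Ω → Ω → ℂ} (hL : InvKernel G L) :
    classInner (tau G L) (χ₀ : G → ℂ) =
      2 * (∑ i, L (e (false, 0)) (e (false, i))) - ∑ y, L (e (false, 0)) y := by
  classical
  set o := e (false, 0) with ho
  set M : Bool → Bool → ℂ := fun b b' => ∑ i, L (e (b, 0)) (e (b', i)) with hM
  have hsh : ∀ (b b' : Bool) (i j : ZMod p), L (e (b, i)) (e (b', j)) = L (e (b, 0)) (e (b', j - i)) := by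
    intro b b' i j
    have := hL (x ^ i.val) (e (b, 0)) (e (b', j - i))
    rw [pow_val_smul_coord he, pow_val_smul_coord he, zero_add, sub_add_cancel] at this
    exact this
  have hrow : ∀ b, M b true + M b false = ∑ y, L o y := by
    intro b
    obtain ⟨g, hg⟩ := exists_smul_eq G o (e (b, 0))
    rw [hM]
    dsimp only
    rw [← sum_coord e (fun y => L (e (b, 0)) y), ← hg]
    exact (Fintype.sum_equiv (MulAction.toPerm g) _ _ fun z => (hL g o z).symm).symm
  have hcol : M true false + M false false = ∑ y, L o y := by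
    rw [← sum_col_eq hL o, sum_coord e (fun y => L y o)]
    congr 1 <;>
    · rw [hM]
      refine Fintype.sum_equiv (Equiv.neg (ZMod p)) _ _ fun i => ?_
      rw [Equiv.neg_apply, ho, hsh _ _ (-i) 0, zero_sub, neg_neg]
  have hdiag : M true true = M false false := by
    have h1 := hrow true
    have h2 := hrow false
    linear_combination h1 - hcol
  have hsum : ∑ c : ZMod p, tau G L (x ^ c.val) = (p : ℂ) * (2 * M false false) := by
    simp only [tau]
    rw [Finset.sum_comm, sum_coord e (fun y => ∑ c : ZMod p, L y (x ^ c.val • y))]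
    have : ∀ b (i : ZMod p), ∑ c : ZMod p, L (e (b, i)) (x ^ c.val • e (b, i)) = M b b := fun b i => by
      refine Finset.sum_congr rfl fun c _ => ?_
      rw [pow_val_smul_coord he, hsh, add_sub_cancel_left]
    simp only [this, Finset.sum_const, Finset.card_univ, ZMod.card, nsmul_eq_mul, hdiag]
    ring
  have hexp := eq_sum_classInner (isClassFunction_tau hL)
  have hsum2 : ∑ c : ZMod p, tau G L (x ^ c.val) =
      (p : ℂ) * (classInner (tau G L) (trivIrr G : G → ℂ) + classInner (tau G L) (χ₀ : G → ℂ)) := by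
    conv_lhs => rw [hexp]
    simp only [Finset.sum_apply, Pi.smul_apply, smul_eq_mul]
    rw [Finset.sum_comm, ← Finset.sum_subset (Finset.subset_univ ({trivIrr G, χ₀} : Finset _))
      (fun χ _ hχ => ?_), Finset.sum_pair h0t.symm, ← Finset.mul_sum, ← Finset.mul_sum,
      (hn χ₀).sum_apply, hn0, Nat.cast_one, mul_one]
    · simp only [trivIrr_apply, Finset.sum_const, Finset.card_univ, ZMod.card, nsmul_eq_mul, mul_one]
      ring
    · simp only [Finset.mem_insert, Finset.mem_singleton, not_or] at hχ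
      rw [← Finset.mul_sum, (hn χ).sum_apply]
      rcases hother χ hχ.1 hχ.2 with h | h
      · rw [h]; simp
      · rw [classInner_tau_eq_zero hL χ.2 h, zero_mul]
  have h1 : classInner (tau G L) (trivIrr G : G → ℂ) = ∑ y, L o y := classInner_tau_one hL o
  have := mul_left_cancel₀ (Nat.cast_ne_zero.mpr hpF.out.ne_zero) (hsum2.symm.trans hsum)
  rw [h1] at this
  show _ = 2 * M false false - _
  linear_combination this

/-- In a multiplicity-free action the eigenvalue `r` of multiplicity `p` of a kernel with entries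
`0`, `1` and row sum `k` satisfies `k ^ 2 + p r ^ 2 ≤ 2 p k`. -/
theorem eigen_sq_bound [Fintype (IrrCharacter G)] (hΩ : Fintype.card Ω = 2 * p) {χ₀ : IrrCharacter G}
    (h0t : χ₀ ≠ trivIrr G) (h0deg : (χ₀ : G → ℂ) 1 = p)
    (h01 : classInner (fun g : G => (Nat.card (fixedBy Ω g) : ℂ)) (χ₀ : G → ℂ) = 1)
    (ht1 : classInner (fun g : G => (Nat.card (fixedBy Ω g) : ℂ)) (trivIrr G : G → ℂ) = 1)
    (hmf : ∀ χ : IrrCharacter G,
      classInner (fun g : G => (Nat.card (fixedBy Ω g) : ℂ)) (χ : G → ℂ) = 0 ∨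
      classInner (fun g : G => (Nat.card (fixedBy Ω g) : ℂ)) (χ : G → ℂ) = 1)
    {R : Ω → Ω → ℂ} (hR : InvKernel G R) (h01R : ∀ a b, R a b = 0 ∨ R a b = 1) (o : Ω) {k : ℕ}
    {r : ℤ} (hk : ∑ y, R o y = k) (hr : classInner (tau G R) (χ₀ : G → ℂ) = r)
    (hr' : classInner (tau G fun a b => R b a) (χ₀ : G → ℂ) = r) :
    (k : ℤ) * k + p * (r * r) ≤ 2 * p * k := by
  classical
  set R' : Ω → Ω → ℂ := fun a b => R b a with hR'
  have hR'i : InvKernel G R' := fun g a b => hR g b a
  have hQ := hR.kmul hR'i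
  have hreal : ∀ g : G, conj (tau G R g) = tau G R g := fun g => by
    rw [tau, map_sum]
    exact Finset.sum_congr rfl fun a _ => by rcases h01R a (g • a) with h | h <;> rw [h] <;> simp
  have hswap : ∀ g : G, tau G R' g = tau G R g⁻¹ := fun g =>
    Fintype.sum_equiv (MulAction.toPerm g) _ _ fun a => by simp [hR']
  have hconj : ∀ χ : IrrCharacter G,
      classInner (tau G R') (χ : G → ℂ) = conj (classInner (tau G R) (χ : G → ℂ)) := by
    intro χ
    simp only [classInner, map_mul, map_inv₀, map_natCast, map_sum, hswap]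
    congr 1
    refine Fintype.sum_equiv (Equiv.inv G) _ _ fun g => ?_
    simp only [Equiv.inv_apply, hreal, Complex.conj_conj]
    rw [IsIrrCharacter.inv χ.2]
  have htr : ∑ a, kmul R R' a a = ((2 * p * k : ℕ) : ℂ) := by
    have hd : ∀ a, kmul R R' a a = k := fun a => by
      obtain ⟨g, rfl⟩ := exists_smul_eq G o a
      rw [hQ, ← hk]
      refine Finset.sum_congr rfl fun y _ => ?_
      rcases h01R o y with h | h <;> simp [hR', h]
    simp [hd, hΩ]
  rw [sum_diag_eq (G := G) hQ, ← Finset.add_sum_erase _ _ (Finset.mem_univ (trivIrr G)),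
    ← Finset.add_sum_erase _ _ (Finset.mem_erase.mpr ⟨h0t, Finset.mem_univ χ₀⟩),
    classInner_tau_kmul hR hR'i (trivIrr G).2 ht1, trivIrr_apply, mul_one,
    classInner_tau_kmul hR hR'i χ₀.2 h01, hr, hr', h0deg, hconj (trivIrr G),
    show classInner (tau G R) (trivIrr G : G → ℂ) = (k : ℂ) from (classInner_tau_one hR o).trans hk,
    Complex.conj_natCast] at htr
  have hterm : ∀ χ : IrrCharacter G, 0 ≤ (classInner (tau G (kmul R R')) (χ : G → ℂ) * (χ : G → ℂ) 1).re := by
    intro χ
    rcases hmf χ with h | h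
    · rw [classInner_tau_eq_zero hQ χ.2 h, zero_mul, Complex.zero_re]
    · obtain ⟨d, hd⟩ := exists_degree_of_isIrr χ.2
      rw [classInner_tau_kmul hR hR'i χ.2 h, hconj χ, Complex.mul_conj, hd.2]
      simp only [Complex.mul_re, Complex.ofReal_re, Complex.natCast_re, Complex.ofReal_im,
        Complex.natCast_im, mul_zero, sub_zero]
      exact mul_nonneg (Complex.normSq_nonneg _) (Nat.cast_nonneg d)
  have h := congrArg Complex.re htr
  simp only [Complex.add_re, Complex.mul_re, Complex.natCast_re, Complex.natCast_im, Complex.intCast_re,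
    Complex.intCast_im, Complex.mul_im, mul_zero, zero_mul, sub_zero, add_zero, Complex.re_sum] at h
  have hnn := Finset.sum_nonneg fun χ (_ : χ ∈ ((Finset.univ : Finset (IrrCharacter G)).erase (trivIrr G)).erase χ₀) =>
    hterm χ
  simp only [Complex.mul_re] at hnn
  have h2 : ((k : ℤ) * k + p * (r * r) : ℤ) ≤ ((2 * p * k : ℕ) : ℤ) := by
    have h3 : (((k : ℤ) * k + p * (r * r) : ℤ) : ℝ) ≤ (((2 * p * k : ℕ) : ℤ) : ℝ) := by
      push_cast at h ⊢
      linarith
    exact_mod_cast h3
  push_cast at h2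
  exact h2

/-- The stabiliser of the first centre fixes the second centre. -/
theorem stabilizer_fixes (e : Bool × ZMod p ≃ Ω) (he : ∀ b i, x • e (b, i) = e (b, i + 1))
    (hΩ : Fintype.card Ω = 2 * p) (U : Subgroup (ZMod p)ˣ)
    (hU : ∀ u ∈ U, ∃ g : G, ∀ b i, g • e (b, i) = e (b, (u : ZMod p) * i))
    {h : ℕ} (hh : Nat.card U = h) (h2 : 2 ≤ h) {T : ℕ} (hT : T * h = p - 1)
    (hrank : Nat.card (orbitRel.Quotient (stabilizer G (e (false, 0))) Ω) = 2 + T)
    [Fintype (IrrCharacter G)] (n : IrrCharacter G → ZMod p → ℕ)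
    (hn : ∀ χ : IrrCharacter G, IsWeights x (χ : G → ℂ) (n χ)) {χ₀ : IrrCharacter G}
    (h0t : χ₀ ≠ trivIrr G) (hn0 : n χ₀ 0 = 1) (h0deg : (χ₀ : G → ℂ) 1 = p)
    (h01 : classInner (fun g : G => (Nat.card (fixedBy Ω g) : ℂ)) (χ₀ : G → ℂ) = 1)
    (ht1 : classInner (fun g : G => (Nat.card (fixedBy Ω g) : ℂ)) (trivIrr G : G → ℂ) = 1)
    (hmf : ∀ χ : IrrCharacter G,
      classInner (fun g : G => (Nat.card (fixedBy Ω g) : ℂ)) (χ : G → ℂ) = 0 ∨
      classInner (fun g : G => (Nat.card (fixedBy Ω g) : ℂ)) (χ : G → ℂ) = 1)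
    (hother : ∀ χ : IrrCharacter G, χ ≠ trivIrr G → χ ≠ χ₀ → n χ 0 = 0 ∨
      classInner (fun g : G => (Nat.card (fixedBy Ω g) : ℂ)) (χ : G → ℂ) = 0) :
    ∀ g ∈ stabilizer G (e (false, 0)), g • e (true, 0) = e (true, 0) := by
  classical
  set o := e (false, 0) with ho
  haveI := Fintype.ofFinite (orbitRel.Quotient (stabilizer G o) Ω)
  set mk : Ω → orbitRel.Quotient (stabilizer G o) Ω := Quotient.mk'' with hmk
  set q₀ := mk o with hq₀
  set q₁ := mk (e (true, 0)) with hq₁
  have hbase : ∀ y, mk y = q₀ → y = o := by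
    intro y hy
    obtain ⟨g, hg⟩ := Quotient.exact' hy
    exact hg.symm.trans g.2
  set cnt : Bool → orbitRel.Quotient (stabilizer G o) Ω → ℕ := fun b q =>
    ((Finset.univ.erase (0 : ZMod p)).filter fun i => mk (e (b, i)) = q).card with hcnt
  have hdvd : ∀ b q, h ∣ cnt b q := by
    intro b q
    rw [← hh]
    refine dvd_card_of_invariant U _ (fun i hi => Finset.ne_of_mem_erase (Finset.mem_filter.mp hi).1)
      fun u hu i => ?_
    obtain ⟨g, hg⟩ := hU u hu
    have hgo : g ∈ stabilizer G o := by rw [mem_stabilizer_iff, ho, hg, mul_zero]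
    have hq : mk (e (b, (u : ZMod p) * i)) = mk (e (b, i)) :=
      Quotient.sound' ⟨⟨g, hgo⟩, hg b i⟩
    simp only [Finset.mem_filter, Finset.mem_erase, Finset.mem_univ, and_true, hq, ne_eq,
      mul_eq_zero, Units.ne_zero, false_or]
  have htotal : ∀ b, ∑ q ∈ Finset.univ.erase q₀, cnt b q = p - 1 := by
    intro b
    rw [hcnt]
    dsimp only
    rw [← Finset.card_eq_sum_card_fiberwise fun i hi => ?_, Finset.card_erase_of_mem (Finset.mem_univ _),
      Finset.card_univ, ZMod.card]
    refine Finset.mem_coe.mpr (Finset.mem_erase.mpr ⟨fun hq => ?_, Finset.mem_univ _⟩)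
    exact (Finset.ne_of_mem_erase hi) (Prod.mk.inj (e.injective (hbase _ hq))).2
  have hindic : ∀ (b : Bool) q, q ≠ q₀ →
      ∑ i, (if mk (e (b, i)) = q then (1 : ℂ) else 0) =
        (cnt b q : ℂ) + if mk (e (b, 0)) = q then 1 else 0 := by
    intro b q _
    rw [← Finset.sum_erase_add _ _ (Finset.mem_univ (0 : ZMod p)), Finset.sum_boole]
  have hkey : ∀ q, q ≠ q₀ → q ≠ q₁ → 2 * h ≤ cnt true q + cnt false q := by
    intro q hq0 hq1
    set R := orbital G o q.out with hR
    have hRi : InvKernel G R := invKernel_orbital o q.out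
    have hR01 : ∀ a b, R a b = 0 ∨ R a b = 1 := fun a b => by
      rw [hR]; unfold orbital; split_ifs <;> simp
    have hRo : ∀ y, R o y = if mk y = q then 1 else 0 := by
      intro y
      rw [hR]; unfold orbital
      by_cases hy : mk y = q
      · obtain ⟨g, hg⟩ := Quotient.exact' (hy.trans (Quotient.out_eq' q).symm)
        rw [if_pos hy, if_pos ⟨(g : G), g.2, hg⟩]
      · rw [if_neg hy, if_neg]
        rintro ⟨g, hg1, hg2⟩
        have h1 : mk y = mk q.out := Quotient.sound' ⟨⟨g, hg1⟩, hg2⟩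
        exact hy (h1.trans (Quotient.out_eq' q))
    have hA : ∑ i, R o (e (false, i)) = (cnt false q : ℂ) := by
      simp only [hRo]
      rw [hindic false q hq0, if_neg fun h' => hq0 h'.symm, add_zero]
    have hk : ∑ y, R o y = ((cnt true q + cnt false q : ℕ) : ℂ) := by
      rw [sum_coord e (fun y => R o y), hA]
      simp only [hRo]
      rw [hindic true q hq0, if_neg fun h' => hq1 h'.symm, add_zero, Nat.cast_add]
    have hr : classInner (tau G R) (χ₀ : G → ℂ) =
        (((cnt false q : ℤ) - cnt true q : ℤ) : ℂ) := by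
      rw [classInner_tau_fixed e he n hn h0t hn0 hother hRi, hA, hk]
      push_cast
      ring
    have hr' : classInner (tau G fun a b => R b a) (χ₀ : G → ℂ) =
        (((cnt false q : ℤ) - cnt true q : ℤ) : ℂ) := by
      rw [classInner_tau_fixed e he n hn h0t hn0 hother (L := fun a b => R b a)
        (fun g a b => hRi g b a), sum_col_eq hRi o, hk,
        show ∑ i, R (e (false, i)) o = (cnt false q : ℂ) from ?_]
      · push_cast; ring
      rw [← hA]
      refine Fintype.sum_equiv (Equiv.neg (ZMod p)) _ _ fun i => ?_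
      have := hRi (x ^ (-i).val) (e (false, i)) o
      rw [ho, pow_val_smul_coord he, pow_val_smul_coord he, zero_add, add_neg_cancel] at this
      exact this.symm
    have hb := eigen_sq_bound hΩ h0t h0deg h01 ht1 hmf hRi hR01 o hk hr hr'
    have hpos : 0 < cnt true q + cnt false q := by
      by_contra h0
      have hz : ∑ y, R o y = 0 := by rw [hk, Nat.eq_zero_of_not_pos h0, Nat.cast_zero]
      rw [hR, sum_orbital, Nat.cast_eq_zero] at hz
      exact (Nat.card_pos_iff.mpr ⟨(nonempty_orbit q.out).to_subtype, inferInstance⟩).ne' hz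
    obtain ⟨a, ha⟩ := hdvd true q
    obtain ⟨b, hb'⟩ := hdvd false q
    rw [ha, hb'] at hpos hb ⊢
    by_contra hlt
    push Not at hlt
    rw [← Nat.mul_add] at hpos hlt
    rw [mul_comm 2 h] at hlt
    have hab : a + b = 1 := by
      have := Nat.lt_of_mul_lt_mul_left hlt
      have : a + b ≠ 0 := fun h0 => by rw [h0, mul_zero] at hpos; omega
      omega
    push_cast at hb
    have h2' : (2 : ℤ) ≤ h := by exact_mod_cast h2
    have hp0 : (0 : ℤ) ≤ p := by positivity
    rcases (show (a = 1 ∧ b = 0) ∨ (a = 0 ∧ b = 1) by omega) with ⟨rfl, rfl⟩ | ⟨rfl, rfl⟩ <;>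
    · push_cast at hb
      nlinarith [mul_le_mul_of_nonneg_right h2' (mul_nonneg hp0 (by linarith : (0 : ℤ) ≤ h)), mul_le_mul h2' h2' (by norm_num) (by linarith)]
  have hq01 : q₁ ≠ q₀ := fun hq => by
    have := congrArg Prod.fst (e.injective (hbase _ hq))
    simp at this
  have hzero : cnt true q₁ + cnt false q₁ = 0 := by
    have hs : ∑ q ∈ Finset.univ.erase q₀, (cnt true q + cnt false q) = 2 * (p - 1) := by
      rw [Finset.sum_add_distrib, htotal, htotal]; ring
    rw [← Finset.add_sum_erase _ _ (Finset.mem_erase.mpr ⟨hq01, Finset.mem_univ q₁⟩)] at hs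
    have hc : (((Finset.univ : Finset (orbitRel.Quotient (stabilizer G o) Ω)).erase q₀).erase q₁).card = T := by
      rw [Finset.card_erase_of_mem (Finset.mem_erase.mpr ⟨hq01, Finset.mem_univ q₁⟩),
        Finset.card_erase_of_mem (Finset.mem_univ _), Finset.card_univ, ← Nat.card_eq_fintype_card,
        hrank]
      omega
    have hle := Finset.card_nsmul_le_sum
      (((Finset.univ : Finset (orbitRel.Quotient (stabilizer G o) Ω)).erase q₀).erase q₁)
      (fun q => cnt true q + cnt false q) (2 * h) fun q hq =>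
        hkey q (Finset.ne_of_mem_erase (Finset.mem_erase.mp hq).2) (Finset.mem_erase.mp hq).1
    rw [hc, smul_eq_mul, show T * (2 * h) = 2 * (p - 1) by rw [← hT]; ring] at hle
    omega
  intro g hg
  obtain ⟨⟨b, i⟩, hbi⟩ := e.surjective (g • e (true, 0))
  have hq : mk (e (b, i)) = q₁ := by
    rw [hbi]
    exact Quotient.sound' ⟨⟨g, hg⟩, rfl⟩
  by_cases hi : i = 0
  · cases b
    · exact absurd (by rw [← hq, hi]) hq01
    · rw [← hbi, hi]
  · exfalso
    have : 0 < cnt b q₁ := Finset.card_pos.mpr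
      ⟨i, Finset.mem_filter.mpr ⟨Finset.mem_erase.mpr ⟨hi, Finset.mem_univ _⟩, hq⟩⟩
    cases b <;> omega

end CfsgLib.PermGroups.TwoP
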