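import Cfsg.Agent.Lib.PermGroups.TwoPNormalizer
import Cfsg.Agent.Lib.PermGroups.TwoPConstituents
import Cfsg.Agent.Lib.PermGroups.TwoPSuborbit
import Cfsg.Agent.S0719

/-!
# Wielandt's theorem on primitive groups of degree `2p`
-/

set_option autoImplicit false
set_option linter.unusedSectionVars false
set_option linter.style.haveILetI false
set_option maxHeartbeats 800000

namespace CfsgLib.PermGroups.TwoP

open Cfsg CfsgLib.CharTheory CfsgLib.AltGroups MulAction

section General

variable {G : Type*} [Group G] {Ω : Type*} [MulAction G Ω] [IsPretransitive G Ω]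

theorem isMultiplyPretransitive_two_of_rank (a : Ω)
    (hrank : Nat.card (orbitRel.Quotient (stabilizer G a) Ω) = 2) :
    IsMultiplyPretransitive G Ω 2 := by
  rw [is_two_pretransitive_iff]
  have key : ∀ {b c : Ω}, b ≠ a → c ≠ a → ∃ g : G, g • a = a ∧ g • b = c := by
    intro b c hb hc
    have hne : ∀ {y : Ω}, y ≠ a → (Quotient.mk'' y : orbitRel.Quotient (stabilizer G a) Ω) ≠ Quotient.mk'' a := by
      intro y hy h
      obtain ⟨g, hg⟩ := Quotient.exact' h
      exact hy (hg.symm.trans g.2)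
    have hcb : (Quotient.mk'' c : orbitRel.Quotient (stabilizer G a) Ω) = Quotient.mk'' b := by
      obtain ⟨u, v, -, huv⟩ := (Nat.card_eq_two_iff).mp hrank
      have h1 : ∀ q : orbitRel.Quotient (stabilizer G a) Ω, q = u ∨ q = v := fun q => by
        have := huv ▸ Set.mem_univ q
        simpa using this
      rcases h1 (Quotient.mk'' a) with h | h <;> rcases h1 (Quotient.mk'' b) with h' | h' <;>
        rcases h1 (Quotient.mk'' c) with h'' | h'' <;>
        first
          | exact h''.trans h'.symm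
          | exact absurd (h'.trans h.symm) (hne hb)
          | exact absurd (h''.trans h.symm) (hne hc)
    obtain ⟨g, hg⟩ := Quotient.exact' hcb
    exact ⟨g, g.2, hg⟩
  intro a' b' c' d' hab hcd
  obtain ⟨s, hs⟩ := exists_smul_eq G a' a
  obtain ⟨t, ht⟩ := exists_smul_eq G c' a
  obtain ⟨g, hg1, hg2⟩ := key (b := s • b') (c := t • d')
    (fun h => hab (MulAction.injective s (hs.trans h.symm)))
    (fun h => hcd (MulAction.injective t (ht.trans h.symm)))
  refine ⟨t⁻¹ * g * s, ?_, ?_⟩
  · rw [mul_smul, mul_smul, hs, hg1, ← ht, inv_smul_smul]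
  · rw [mul_smul, mul_smul, hg2, inv_smul_smul]

theorem isMultiplyPretransitive_two_of_subgroup (K : Subgroup G)
    (h : IsMultiplyPretransitive K Ω 2) : IsMultiplyPretransitive G Ω 2 := by
  rw [is_two_pretransitive_iff] at h ⊢
  intro a b c d hab hcd
  obtain ⟨k, h1, h2⟩ := h hab hcd
  exact ⟨k, h1, h2⟩

theorem rank_le_of_subgroup [Fintype G] [Fintype Ω] (K : Subgroup G) [IsPretransitive K Ω] (a b : Ω) :
    Nat.card (orbitRel.Quotient (stabilizer G a) Ω) ≤ Nat.card (orbitRel.Quotient (stabilizer K b) Ω) := by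
  haveI : Fintype K := Fintype.ofFinite K
  rw [← card_orbits_prod (G := G) a, ← card_orbits_prod (G := K) b]
  refine Nat.card_le_card_of_surjective (Quotient.map' id fun y z h => ?_) fun q => ?_
  · obtain ⟨k, hk⟩ := h
    exact ⟨(k : G), hk⟩
  · induction q using Quotient.inductionOn' with
    | _ y => exact ⟨Quotient.mk'' y, rfl⟩

theorem sum_perm_three [Fintype G] [Fintype Ω] (χ₀ ψ : IrrCharacter G)
    (h0 : χ₀ ≠ trivIrr G) (hψ : ψ ≠ trivIrr G) (hne : χ₀ ≠ ψ)
    (hout : ∀ χ : IrrCharacter G, χ ≠ trivIrr G → χ ≠ χ₀ → χ ∉ ({ψ} : Finset (IrrCharacter G)) →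
      classInner (fun g : G => (Nat.card (fixedBy Ω g) : ℂ)) (χ : G → ℂ) = 0)
    (hin : ∀ χ : IrrCharacter G, (χ = trivIrr G ∨ χ = χ₀ ∨ χ ∈ ({ψ} : Finset (IrrCharacter G))) →
      classInner (fun g : G => (Nat.card (fixedBy Ω g) : ℂ)) (χ : G → ℂ) = 1) :
    (fun g : G => (Nat.card (fixedBy Ω g) : ℂ)) =
      fun g => 1 + (ψ : G → ℂ) g + (χ₀ : G → ℂ) g := by
  classical
  haveI := Fintype.ofFinite (IrrCharacter G)
  funext g
  have h := congrFun (eq_sum_classInner
    (IsCharacter.isClassFunction (isCharacter_card_fixedBy (G := G) Ω))) g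
  rw [h, Finset.sum_apply, ← Finset.sum_subset (Finset.subset_univ {trivIrr G, ψ, χ₀}) fun χ _ hχ => ?_,
    Finset.sum_insert, Finset.sum_insert, Finset.sum_singleton]
  · simp only [Pi.smul_apply, smul_eq_mul, hin (trivIrr G) (Or.inl rfl), hin χ₀ (Or.inr (Or.inl rfl)),
      hin ψ (Or.inr (Or.inr (Finset.mem_singleton_self ψ))), trivIrr_apply, one_mul, add_assoc]
  · simpa using hne.symm
  · simp [hψ.symm, h0.symm]
  · simp only [Finset.mem_insert, Finset.mem_singleton, not_or] at hχ
    rw [Pi.smul_apply, hout χ hχ.1 hχ.2.2 (by simpa using hχ.2.1), zero_smul]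

end General

variable {α : Type*} [Fintype α] [DecidableEq α]

theorem two_transitive_of_four {G : Subgroup (Equiv.Perm α)} (hα : Fintype.card α = 4)
    (hG : IsPreprimitive G α) : IsMultiplyPretransitive G α 2 := by
  classical
  haveI := hG
  haveI : IsPretransitive G α := hG.toIsPretransitive
  by_contra h2
  haveI : Nonempty α := Fintype.card_pos_iff.mp (by omega)
  haveI : Nontrivial α := Fintype.one_lt_card_iff_nontrivial.mp (by omega)
  obtain ⟨a⟩ := ‹Nonempty α›
  haveI := Fintype.ofFinite (orbitRel.Quotient (stabilizer G a) α)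
  set r := Nat.card (orbitRel.Quotient (stabilizer G a) α) with hr
  have hle : r ≤ 4 := by
    rw [← hα, ← Nat.card_eq_fintype_card]
    exact Nat.card_le_card_of_surjective _ Quotient.mk''_surjective
  have hr2 : r ≠ 2 := fun h => h2 (isMultiplyPretransitive_two_of_rank a h)
  have hsum := card_eq_sum_suborbits (G := G) a
  set q₀ : orbitRel.Quotient (stabilizer G a) α := Quotient.mk'' a with hq₀
  have hk0 : Nat.card (orbit (stabilizer G a) q₀.out) = 1 := by
    rw [orbit_eq_iff.mpr (Quotient.exact' (Quotient.out_eq' q₀) : q₀.out ∈ orbit (stabilizer G a) a)]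
    exact card_orbit_self a
  rw [Nat.card_eq_fintype_card, hα, ← Finset.add_sum_erase _ _ (Finset.mem_univ q₀), hk0] at hsum
  have hcard : ((Finset.univ : Finset (orbitRel.Quotient (stabilizer G a) α)).erase q₀).card = r - 1 := by
    rw [Finset.card_erase_of_mem (Finset.mem_univ _), Finset.card_univ, hr, Nat.card_eq_fintype_card]
  by_cases h4 : r < 4
  · have hge := Finset.card_nsmul_le_sum
      ((Finset.univ : Finset (orbitRel.Quotient (stabilizer G a) α)).erase q₀)
      (fun q => Nat.card (orbit (stabilizer G a) q.out)) 2 fun q hq => by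
        have h1 := Cfsg.Agent.S0719.suborbit_ne_one hG (out_ne (Finset.ne_of_mem_erase hq))
          (by rw [← hr, Nat.card_eq_fintype_card (α := α), hα]; exact h4)
        have : 0 < Nat.card (orbit (stabilizer G a) q.out) :=
          Nat.card_pos_iff.mpr ⟨(nonempty_orbit q.out).to_subtype, inferInstance⟩
        omega
    rw [hcard, smul_eq_mul] at hge
    have hpos : r ≠ 0 := by
      rw [hr]
      exact (Nat.card_pos_iff.mpr ⟨⟨q₀⟩, inferInstance⟩).ne'
    have hone : r ≠ 1 := fun h1 => by
      rw [h1] at hcard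
      rw [Finset.card_eq_zero.mp hcard, Finset.sum_empty] at hsum
      omega
    omega
  · have hbij : Function.Bijective
        (Quotient.mk'' : α → orbitRel.Quotient (stabilizer G a) α) :=
      (Fintype.bijective_iff_surjective_and_card _).mpr ⟨Quotient.mk''_surjective, by
        rw [hα, ← Nat.card_eq_fintype_card, ← hr]; omega⟩
    have hbot : stabilizer G a = ⊥ := by
      refine (Subgroup.eq_bot_iff_forall _).mpr fun g hg => Subtype.ext (Equiv.ext fun y => ?_)
      exact hbij.1 (Quotient.sound' ⟨⟨g, hg⟩, rfl⟩)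
    have hco : IsCoatom (stabilizer G a) := (isCoatom_stabilizer_iff_preprimitive G a).mpr hG
    rw [hbot] at hco
    have hG4 : Nat.card G = 4 := by
      have := Nat.card_congr (MulAction.orbitEquivQuotientStabilizer G a)
      rw [orbit_eq_univ, Nat.card_univ, Nat.card_eq_fintype_card, hα, hbot] at this
      rw [Subgroup.card_eq_card_quotient_mul_card_subgroup (⊥ : Subgroup G), ← this, Subgroup.card_bot,
        mul_one]
    haveI : Fact (Nat.Prime 2) := ⟨Nat.prime_two⟩
    obtain ⟨g, hg⟩ := exists_prime_orderOf_dvd_card' (G := G) 2 (by rw [hG4]; norm_num)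
    rcases hco.le_iff.mp (bot_le : (⊥ : Subgroup G) ≤ Subgroup.zpowers g) with h | h
    · have := congrArg (fun S : Subgroup G => Nat.card S) h
      simp only [Nat.card_zpowers, hg, Subgroup.card_top, hG4] at this
      omega
    · rw [Subgroup.zpowers_eq_bot] at h
      rw [h, orderOf_one] at hg
      omega

variable {p : ℕ} [hpF : Fact p.Prime]

theorem wielandt {G : Subgroup (Equiv.Perm α)} (hα : Fintype.card α = 2 * p)
    (hG : IsPreprimitive G α) (a₀ : α) (h2 : ¬ IsMultiplyPretransitive G α 2) :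
    Nat.card (orbitRel.Quotient (stabilizer G a₀) α) = 3 ∧
      ∃ a : ℕ, 0 < a ∧ p = 2 * a ^ 2 + 2 * a + 1 ∧ ∀ b : α, b ≠ a₀ →
        Nat.card (orbit (stabilizer G a₀) b) = a * (2 * a + 1) ∨
        Nat.card (orbit (stabilizer G a₀) b) = (a + 1) * (2 * a + 1) := by
  classical
  have hp := hpF.out
  have hp3 : p ≠ 2 := fun h => h2 (two_transitive_of_four (by rw [hα, h]) hG)
  haveI := hG
  haveI : IsPretransitive G α := hG.toIsPretransitive
  haveI : IsQuasiPreprimitive G α := inferInstance
  have hfree : ∀ g : G, g ^ p = 1 → g ≠ 1 → ∀ a : α, g • a ≠ a := fun g h1 h1' =>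
    smul_ne_of_orderOf hα hG h2 (orderOf_eq_prime h1 h1')
  have hdvd : p ∣ Nat.card G := by
    have := Nat.card_congr (MulAction.orbitEquivQuotientStabilizer G a₀)
    rw [orbit_eq_univ, Nat.card_univ, Nat.card_eq_fintype_card, hα] at this
    rw [Subgroup.card_eq_card_quotient_mul_card_subgroup (stabilizer G a₀), ← this]
    exact dvd_mul_of_dvd_left (dvd_mul_left p 2) _
  obtain ⟨x, hx⟩ := exists_prime_orderOf_dvd_card' (G := G) p hdvd
  have hnontriv : ∀ H : Subgroup G, H ≠ ⊥ → fixedPoints H α ≠ Set.univ := by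
    intro H hH hfix
    refine hH ((Subgroup.eq_bot_iff_forall H).mpr fun g hg => Subtype.ext (Equiv.ext fun y => ?_))
    have hy : y ∈ fixedPoints H α := hfix ▸ Set.mem_univ y
    exact hy ⟨g, hg⟩
  have htrans : ∀ (H : Subgroup G), H.Normal → H ≠ ⊥ → IsPretransitive H α := fun H hH h =>
    haveI := hH
    IsQuasiPreprimitive.isPretransitive_of_normal (hnontriv H h)
  -- the even part
  set K : Subgroup G := (Equiv.Perm.sign.comp G.subtype).ker with hKdef
  have hKmem : ∀ g : G, g ^ p = 1 → g ∈ K := by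
    intro g hg
    rw [hKdef, MonoidHom.mem_ker]
    have h1 := congrArg (Equiv.Perm.sign.comp G.subtype) hg
    rw [map_pow, map_one] at h1
    rcases Int.units_eq_one_or ((Equiv.Perm.sign.comp G.subtype) g) with h | h
    · exact h
    · rw [h, (hp.odd_of_ne_two hp3).neg_one_pow] at h1
      exact absurd h1 (by decide)
  have hxp : x ^ p = 1 := by rw [← hx, pow_orderOf_eq_one]
  have hx1 : x ≠ 1 := fun h => hp.ne_one (by rw [← hx, h, orderOf_one])
  set xK : K := ⟨x, hKmem x hxp⟩ with hxK
  have hxKo : orderOf xK = p := by rw [← Subgroup.orderOf_coe, hx]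
  haveI : IsPretransitive K α := htrans K (MonoidHom.normal_ker _) fun h =>
    hx1 ((Subgroup.eq_bot_iff_forall K).mp h x (hKmem x hxp))
  have hfreeK : ∀ g : K, g ^ p = 1 → g ≠ 1 → ∀ a : α, g • a ≠ a := fun g h1 h1' =>
    hfree g (by rw [← Subgroup.coe_pow, h1, Subgroup.coe_one]) fun h => h1' (Subtype.ext h)
  have hevenK : ∀ g : K, Equiv.Perm.sign (MulAction.toPerm g : Equiv.Perm α) = 1 := by
    intro g
    have h : (MulAction.toPerm g : Equiv.Perm α) = ((g : G) : Equiv.Perm α) := Equiv.ext fun y => rfl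
    rw [h]
    exact g.2
  obtain ⟨e, U, he, hcardN, hU⟩ := exists_multiplier hp3 hα hxKo hfreeK hevenK
  set h := Nat.card U with hh
  -- Sylow
  have hsq : ¬ p ^ 2 ∣ Nat.card G := not_sq_dvd hp3 hα hG h2
  have hindex : ¬ p ∣ (Subgroup.zpowers xK).index := by
    intro hd
    apply hsq
    rw [sq]
    refine (Nat.mul_dvd_mul_left p hd).trans ?_
    have h' := Subgroup.card_mul_index (Subgroup.zpowers xK)
    rw [Nat.card_zpowers, hxKo] at h'
    rw [h']
    exact Subgroup.card_subgroup_dvd_card K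
  have hpx : IsPGroup p (Subgroup.zpowers xK) :=
    IsPGroup.of_card (n := 1) (by rw [Nat.card_zpowers, hxKo, pow_one])
  set P : Sylow p K := hpx.toSylow hindex with hP
  have hPc : (P : Subgroup K) = Subgroup.zpowers xK := rfl
  -- there are non-trivial multipliers
  have h2h : 2 ≤ h := by
    by_contra hlt
    have hpos : 0 < h := Nat.card_pos
    have h1 : h = 1 := by omega
    have hN : Subgroup.normalizer (Subgroup.zpowers xK : Set K) = Subgroup.zpowers xK := by
      refine (Subgroup.eq_of_le_of_card_ge Subgroup.le_normalizer ?_).symm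
      rw [hcardN, Nat.card_zpowers, hxKo, h1, mul_one]
    have hPC : Subgroup.normalizer (P : Set K) ≤ Subgroup.centralizer (P : Set K) := by
      rw [show (P : Set K) = (Subgroup.zpowers xK : Set K) from rfl, hN]
      exact Subgroup.le_centralizer _
    have hcompl := MonoidHom.ker_transferSylow_isComplement' P hPC
    have hnd := MonoidHom.not_dvd_card_ker_transferSylow P hPC
    set W := (MonoidHom.transferSylow P hPC).ker with hW
    haveI hWn : (W.map K.subtype).Normal := by
      refine ⟨fun y hy g => ?_⟩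
      obtain ⟨w, hw, rfl⟩ := Subgroup.mem_map.mp hy
      have hmem : g * (w : G) * g⁻¹ ∈ K := (MonoidHom.normal_ker _).conj_mem _ w.2 g
      refine Subgroup.mem_map.mpr ⟨⟨_, hmem⟩, ?_, rfl⟩
      rw [hW, MonoidHom.mem_ker, ← orderOf_eq_one_iff]
      have d1 : orderOf (MonoidHom.transferSylow P hPC ⟨_, hmem⟩) ∣ orderOf (⟨_, hmem⟩ : K) :=
        orderOf_map_dvd _ _
      rw [← Subgroup.orderOf_coe (⟨_, hmem⟩ : K), show orderOf (g * (w : G) * g⁻¹) = orderOf w from
        ((MulAut.conj g).orderOf_eq (w : G)).trans (Subgroup.orderOf_coe w)] at d1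
      have d2 : orderOf (MonoidHom.transferSylow P hPC ⟨_, hmem⟩) ∣ p :=
        (orderOf_dvd_natCard _).trans (by rw [hPc, Nat.card_zpowers, hxKo])
      rcases hp.eq_one_or_self_of_dvd _ d2 with h' | h'
      · exact h'
      · exfalso
        rw [h'] at d1
        exact hnd (d1.trans (W.orderOf_dvd_natCard hw))
    by_cases hWb : W = ⊥
    · have hcardK := hcompl.card_mul
      rw [hWb, Subgroup.card_bot, one_mul, hPc, Nat.card_zpowers, hxKo] at hcardK
      have := Nat.card_le_card_of_surjective (fun k : K => k • a₀) fun y => exists_smul_eq K a₀ y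
      rw [Nat.card_eq_fintype_card, hα, ← hcardK] at this
      have := hp.pos
      omega
    · haveI := htrans _ hWn (fun hb => hWb ((Subgroup.map_eq_bot_iff_of_injective _ K.subtype_injective).mp hb))
      have hc := Nat.card_congr (MulAction.orbitEquivQuotientStabilizer (W.map K.subtype) a₀)
      rw [orbit_eq_univ, Nat.card_univ, Nat.card_eq_fintype_card, hα] at hc
      have hd : 2 * p ∣ Nat.card (W.map K.subtype) := by
        rw [Subgroup.card_eq_card_quotient_mul_card_subgroup (stabilizer (W.map K.subtype) a₀), ← hc]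
        exact dvd_mul_right _ _
      rw [Subgroup.card_map_of_injective K.subtype_injective] at hd
      exact hnd ((dvd_mul_left p 2).trans hd)
  -- linear constituents are excluded
  set V := Subgroup.normalClosure ({x} : Set G) with hV
  have hVtrans : IsPretransitive V α := htrans V Subgroup.normalClosure_normal fun hb =>
    hx1 ((Subgroup.eq_bot_iff_forall V).mp hb x (Subgroup.subset_normalClosure rfl))
  have hnoG : ¬ ∃ μ : G →* ℂˣ, μ ≠ 1 ∧ μ x = 1 ∧
      classInner (fun g : G => (Nat.card (fixedBy α g) : ℂ)) (fun g => (μ g : ℂ)) ≠ 0 := by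
    rintro ⟨μ, hμ1, hμx, hin⟩
    haveI := hVtrans
    refine hμ1 (linear_eq_one_of_transitive μ V ?_ hin)
    exact Subgroup.normalClosure_le_normal (by simpa using hμx)
  have hnoK : ¬ ∃ μ : K →* ℂˣ, μ ≠ 1 ∧ μ xK = 1 ∧
      classInner (fun g : K => (Nat.card (fixedBy α g) : ℂ)) (fun g => (μ g : ℂ)) ≠ 0 := by
    rintro ⟨μ, hμ1, hμx, hin⟩
    have hVK : V ≤ K := by
      haveI : K.Normal := MonoidHom.normal_ker _
      exact Subgroup.normalClosure_le_normal (by simpa using hKmem x hxp)
    have hVker : V ≤ μ.ker.map K.subtype := by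
      rw [hV]
      refine (Subgroup.closure_le _).mpr fun y hy => ?_
      obtain ⟨a, ha, hay⟩ := Group.mem_conjugatesOfSet_iff.mp hy
      rw [Set.mem_singleton_iff] at ha
      subst ha
      have hyo : orderOf y = p := by
        obtain ⟨g, rfl⟩ := isConj_iff.mp hay
        exact ((MulAut.conj g).orderOf_eq a).trans hx
      have hyp : y ^ p = 1 := by rw [← hyo, pow_orderOf_eq_one]
      set yK : K := ⟨y, hKmem y hyp⟩ with hyK
      have hyKo : orderOf yK = p := by rw [← Subgroup.orderOf_coe, hyo]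
      obtain ⟨Q, hQ⟩ := (IsPGroup.of_card (n := 1)
        (by rw [Nat.card_zpowers, hyKo, pow_one]) : IsPGroup p (Subgroup.zpowers yK)).exists_le_sylow
      obtain ⟨k, hk⟩ := MulAction.exists_smul_eq K Q P
      have hmem : k * yK * k⁻¹ ∈ Subgroup.zpowers xK := by
        rw [← hPc, ← hk, Sylow.coe_subgroup_smul]
        exact Subgroup.smul_mem_pointwise_smul _ (MulAut.conj k) _ (hQ (Subgroup.mem_zpowers yK))
      obtain ⟨m, hm⟩ := Subgroup.mem_zpowers_iff.mp hmem
      refine Subgroup.mem_map.mpr ⟨yK, ?_, rfl⟩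
      have := congrArg μ hm
      rw [map_zpow, hμx, one_zpow, map_mul, map_mul, map_inv, mul_comm (μ k), mul_inv_cancel_right] at this
      exact this.symm
    haveI : IsPretransitive (V.subgroupOf K) α := by
      haveI := hVtrans
      refine ⟨fun a b => ?_⟩
      obtain ⟨v, hv⟩ := exists_smul_eq V a b
      exact ⟨⟨⟨v, hVK v.2⟩, v.2⟩, hv⟩
    refine hμ1 (linear_eq_one_of_transitive μ (V.subgroupOf K) (fun v hv => ?_) hin)
    obtain ⟨w, hw, hwv⟩ := Subgroup.mem_map.mp (hVker (Subgroup.mem_subgroupOf.mp hv))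
    rwa [← Subtype.ext (a2 := v) hwv]
  set o := e (false, 0) with ho
  haveI := Fintype.ofFinite (IrrCharacter K)
  have hfreeC : ∀ (c : ZMod p) (a : α), c ≠ 0 → xK ^ c.val • a ≠ a := by
    intro c a hc heq
    refine hfreeK _ ?_ (fun h1 => hc ((ZMod.val_eq_zero c).mp (Nat.eq_zero_of_dvd_of_lt
      (orderOf_dvd_of_pow_eq_one h1) (by rw [hxKo]; exact ZMod.val_lt c)))) a heq
    rw [← pow_mul, mul_comm, pow_mul, show xK ^ p = 1 by rw [← hxKo, pow_orderOf_eq_one], one_pow]
  have hp1 : 0 < p - 1 := by have := hp.two_le; omega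
  rcases trichotomy hxKo hα hfreeC o with hr | hlin |
    ⟨χ₀, S, n, d, hn, h0S, htS, h0t, h0deg, hn0, hS, hdeg, hrank, hout, hin⟩
  · exact absurd (isMultiplyPretransitive_two_of_subgroup K (isMultiplyPretransitive_two_of_rank o hr)) h2
  · exact absurd hlin hnoK
  have hS0 : S.card ≠ 0 := fun h0 => by rw [h0, zero_mul] at hdeg; omega
  by_cases hS1 : S.card = 1
  · -- `G` has rank three
    haveI := Fintype.ofFinite (IrrCharacter G)
    have hle : Nat.card (orbitRel.Quotient (stabilizer G a₀) α) ≤ 3 := by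
      have := rank_le_of_subgroup K a₀ o
      rw [hrank, hS1] at this
      exact this
    have hfreeG : ∀ (c : ZMod p) (a : α), c ≠ 0 → x ^ c.val • a ≠ a := fun c a hc heq =>
      hfreeC c a hc heq
    rcases trichotomy hx hα hfreeG a₀ with hr | hlin |
      ⟨χ₀', S', n', d', -, h0S', htS', h0t', h0deg', -, hS', hdeg', hrank', hout', hin'⟩
    · exact absurd (isMultiplyPretransitive_two_of_rank a₀ hr) h2
    · exact absurd hlin hnoG
    have hS0' : S'.card ≠ 0 := fun h0 => by rw [h0, zero_mul] at hdeg'; omega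
    obtain ⟨ψ, rfl⟩ := Finset.card_eq_one.mp (show S'.card = 1 by omega)
    have h3 : Nat.card (orbitRel.Quotient (stabilizer G a₀) α) = 3 := by
      rw [hrank', Finset.card_singleton]
    refine ⟨h3, ?_⟩
    have hψt : ψ ≠ trivIrr G := fun h' => htS' (Finset.mem_singleton.mpr h'.symm)
    have hne : χ₀' ≠ ψ := fun h' => h0S' (Finset.mem_singleton.mpr h')
    have hd' : (ψ : G → ℂ) 1 = (p : ℂ) - 1 := by
      rw [(hS' ψ (Finset.mem_singleton_self ψ)).1]
      rw [Finset.card_singleton, one_mul] at hdeg'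
      rw [hdeg', Nat.cast_sub hp.one_lt.le, Nat.cast_one]
    exact Cfsg.Agent.S0719.result hG hα a₀ h3 ψ χ₀' ψ.2 χ₀'.2
      (sum_perm_three χ₀' ψ h0t' hψt hne hout' hin') hd' h0deg'
  -- several constituents: impossible
  exfalso
  obtain ⟨ψ, hψ⟩ := Finset.card_pos.mp (Nat.pos_of_ne_zero hS0)
  obtain ⟨hψd, hψ0, hψ1⟩ := hS ψ hψ
  have hdh : h ∣ d := by
    have hd : d = (Finset.univ.filter fun j : ZMod p => n ψ j ≠ 0).card := by
      have := (hn ψ).degree
      rw [hψd, Nat.cast_inj] at this
      rw [this, Finset.card_filter]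
      refine Finset.sum_congr rfl fun j _ => ?_
      have := hψ1 j
      split_ifs with hj <;> omega
    rw [hd, hh]
    refine dvd_card_of_invariant U _ (fun i hi h0 => (Finset.mem_filter.mp hi).2 (h0 ▸ hψ0))
      fun u hu i => ?_
    obtain ⟨g, hg, -⟩ := hU u hu
    simp only [Finset.mem_filter, Finset.mem_univ, true_and,
      (hn ψ).invariant (IsIrrCharacter.isClassFunction ψ.2) hxKo hg i]
  have hb := degree_bound ψ.2 hxKo (hn ψ) hψ1 hψd hcardN
  have hd2 : 2 * d ≤ p - 1 := hdeg ▸ Nat.mul_le_mul_right d (show 2 ≤ S.card by omega)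
  have hdh' : d = h := by
    obtain ⟨c, rfl⟩ := hdh
    have hd0 : h * c ≠ 0 := fun h0 => by rw [h0, mul_zero] at hdeg; omega
    have hc : c < 2 := by
      by_contra hc
      push Not at hc
      have hd3 : 2 * h ≤ h * c := by rw [mul_comm 2 h]; exact Nat.mul_le_mul_left h hc
      have := Nat.mul_le_mul hd3 (le_refl (p - h * c))
      have h4 : h * p ≤ 2 * h * (p - h * c) := by
        rw [mul_comm 2 h, mul_assoc]
        exact Nat.mul_le_mul_left h (by omega)
      rw [mul_comm p h] at hb
      omega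
    have : c ≠ 0 := fun h0 => hd0 (by rw [h0, mul_zero])
    obtain rfl : c = 1 := by omega
    rw [mul_one]
  rw [hdh'] at hdeg
  have hfix := stabilizer_fixes e he hα U (fun u hu => (hU u hu).imp fun g hg => hg.2) hh.symm h2h hdeg
    hrank n hn h0t hn0 h0deg (hin χ₀ (Or.inr (Or.inl rfl))) (hin _ (Or.inl rfl))
    (fun χ => by
      by_cases hχ : χ = trivIrr K ∨ χ = χ₀ ∨ χ ∈ S
      · exact Or.inr (hin χ hχ)
      · push Not at hχ
        exact Or.inl (hout χ hχ.1 hχ.2.1 hχ.2.2))
    (fun χ h1 h1' => by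
      by_cases hχ : χ ∈ S
      · exact Or.inl (hS χ hχ).2.1
      · exact Or.inr (hout χ h1 h1' hχ))
  set a₂ := e (true, 0) with ha₂
  have hne : a₂ ≠ o := fun h' => by simpa using congrArg Prod.fst (e.injective h')
  have hindex' : ∀ a : α, (stabilizer K a).index = 2 * p := fun a => by
    rw [MulAction.index_stabilizer_of_transitive, Nat.card_eq_fintype_card, hα]
  have heq : stabilizer K o = stabilizer K a₂ := by
    refine Subgroup.eq_of_le_of_card_ge (fun g hg => hfix g hg) ?_
    have h1 := Subgroup.card_mul_index (stabilizer K o)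
    have h1' := Subgroup.card_mul_index (stabilizer K a₂)
    rw [hindex'] at h1 h1'
    exact (Nat.eq_of_mul_eq_mul_right (by have := hp.pos; omega) (h1'.trans h1.symm)).le
  set H := (stabilizer K o).map K.subtype with hH
  have hHmem : ∀ g : G, g ∈ H ↔ g ∈ K ∧ g • o = o := fun g =>
    ⟨fun hg => by
      obtain ⟨k, hk, rfl⟩ := Subgroup.mem_map.mp hg
      exact ⟨k.2, hk⟩,
    fun hg => Subgroup.mem_map.mpr ⟨⟨g, hg.1⟩, hg.2, rfl⟩⟩
  have hsame : ∀ g : G, g ∈ K → (g • o = o ↔ g • a₂ = a₂) := fun g hg =>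
    SetLike.ext_iff.mp heq (⟨g, hg⟩ : K)
  have hnorm : ∀ s : G, s • o = o ∨ s • o = a₂ → s ∈ Subgroup.normalizer (H : Set G) := by
    intro s hs
    rw [Subgroup.mem_normalizer_iff]
    intro g
    have hKn : g ∈ K ↔ s * g * s⁻¹ ∈ K := by
      haveI : K.Normal := MonoidHom.normal_ker _
      refine ⟨fun hg => this.conj_mem g hg s, fun hg => ?_⟩
      have := this.conj_mem _ hg s⁻¹
      simpa [mul_assoc] using this
    have hconj : (s * g * s⁻¹) • (s • o) = s • g • o := by simp [mul_smul]
    rw [hHmem, hHmem]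
    constructor
    · rintro ⟨hg, hgo⟩
      refine ⟨hKn.mp hg, ?_⟩
      rw [hgo] at hconj
      rcases hs with h' | h'
      · rwa [h'] at hconj
      · rw [h'] at hconj
        exact (hsame _ (hKn.mp hg)).mpr hconj
    · rintro ⟨hg, hgo⟩
      refine ⟨hKn.mpr hg, ?_⟩
      have hgs : (s * g * s⁻¹) • (s • o) = s • o := by
        rcases hs with h' | h'
        · rwa [h']
        · rw [h']; exact (hsame _ hg).mp hgo
      rw [hconj] at hgs
      exact MulAction.injective s hgs
  haveI : Nontrivial α := ⟨a₂, o, hne⟩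
  have hco : IsCoatom (stabilizer G o) := (isCoatom_stabilizer_iff_preprimitive G o).mpr hG
  have htop : Subgroup.normalizer (H : Set G) = ⊤ := by
    rcases hco.le_iff.mp (fun s (hs : s ∈ stabilizer G o) => hnorm s (Or.inl hs)) with h' | h'
    · exact h'
    · obtain ⟨s, hs⟩ := exists_smul_eq G o a₂
      have hs' : s ∈ stabilizer G o := h' ▸ hnorm s (Or.inr hs)
      exact absurd (hs.symm.trans hs') hne
  have hHn : H.Normal := Subgroup.normalizer_eq_top_iff.mp htop
  haveI : Nontrivial U := Finite.one_lt_card_iff_nontrivial.mp (by omega)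
  obtain ⟨⟨u, hu⟩, hu1⟩ := exists_ne (1 : U)
  obtain ⟨g, -, hg⟩ := hU u hu
  have hgH : (g : G) ∈ H := (hHmem g).mpr ⟨g.2, by
    show g • e (false, 0) = _
    rw [hg, mul_zero]⟩
  haveI := htrans H hHn fun hb => by
    have h1 : (g : G) = 1 := (Subgroup.eq_bot_iff_forall H).mp hb _ hgH
    refine hu1 (Subtype.ext (Units.ext ?_))
    have h3 := hg false 1
    rw [show g = 1 from Subtype.ext h1, one_smul, mul_one] at h3
    exact (Prod.mk.inj (e.injective h3)).2.symm
  obtain ⟨⟨s, hs⟩, hsa⟩ := exists_smul_eq H o a₂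
  exact hne (hsa.symm.trans ((hHmem s).mp hs).2)

end CfsgLib.PermGroups.TwoP
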