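import Cfsg.Agent.Lib.PermGroups.TwoPGroup

/-!
# The normaliser of a Sylow `p`-subgroup in an even group of degree `2p`
-/

set_option autoImplicit false
set_option linter.unusedSectionVars false
set_option linter.style.haveILetI false

namespace CfsgLib.PermGroups.TwoP

open MulAction

variable {G : Type*} [Group G] [Finite G] {Ω : Type*} [MulAction G Ω] [FaithfulSMul G Ω] [Fintype Ω]
  [DecidableEq Ω] {p : ℕ} [hpF : Fact p.Prime] {x : G}

/-- The normaliser of `⟨x⟩` multiplies both orbits by the same units and fixes both centres. -/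
theorem exists_multiplier (hp3 : p ≠ 2) (hΩ : Fintype.card Ω = 2 * p) (hx : orderOf x = p)
    (hfree : ∀ g : G, g ^ p = 1 → g ≠ 1 → ∀ a : Ω, g • a ≠ a)
    (heven : ∀ g : G, Equiv.Perm.sign (MulAction.toPerm g : Equiv.Perm Ω) = 1) :
    ∃ (e : Bool × ZMod p ≃ Ω) (U : Subgroup (ZMod p)ˣ),
      (∀ b i, x • e (b, i) = e (b, i + 1)) ∧
      Nat.card (Subgroup.normalizer (Subgroup.zpowers x : Set G)) = p * Nat.card U ∧
      ∀ u ∈ U, ∃ g : G, g * x * g⁻¹ = x ^ (u : ZMod p).val ∧
        ∀ b i, g • e (b, i) = e (b, (u : ZMod p) * i) := by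
  classical
  have hp := hpF.out
  have hxp : x ^ p = 1 := by rw [← hx, pow_orderOf_eq_one]
  have hne : ∀ i : ZMod p, x ^ i.val = 1 → i = 0 := fun i h => by
    have := Nat.eq_zero_of_dvd_of_lt (orderOf_dvd_of_pow_eq_one h) (hx ▸ ZMod.val_lt i)
    exact (ZMod.val_eq_zero i).mp this
  have hval : ∀ i j : ZMod p, x ^ i.val = x ^ j.val → i = j := fun i j h =>
    ZMod.val_injective p (pow_injOn_Iio_orderOf (Set.mem_Iio.mpr (hx ▸ ZMod.val_lt i))
      (Set.mem_Iio.mpr (hx ▸ ZMod.val_lt j)) h)
  obtain ⟨e, he⟩ := exists_coord hΩ hx fun i a hi => by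
    by_contra hi0
    exact hfree _ (by rw [← pow_mul, mul_comm, pow_mul, hxp, one_pow])
      (fun h => hi0 (hne i h)) a hi
  set N := Subgroup.normalizer (Subgroup.zpowers x : Set G) with hN
  have hexu : ∀ n : N, ∃ u : (ZMod p)ˣ, (n : G) * x * (n : G)⁻¹ = x ^ (u : ZMod p).val := by
    intro n
    obtain ⟨k, hk⟩ := (mem_powers_iff_mem_zpowers (x := x)).mpr
      ((Subgroup.mem_normalizer_iff.mp n.2 x).mp (Subgroup.mem_zpowers x))
    have hk' : (n : G) * x * (n : G)⁻¹ = x ^ ((k : ZMod p)).val := by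
      rw [pow_val_natCast hx]; exact hk.symm
    have hk0 : (k : ZMod p) ≠ 0 := by
      intro h
      rw [h, ZMod.val_zero, pow_zero, conj_eq_one_iff] at hk'
      exact hp.ne_one (by rw [← hx, hk', orderOf_one])
    exact ⟨Units.mk0 _ hk0, hk'⟩
  choose u hu using hexu
  have hconj : ∀ (n : N) (c : ℕ), (n : G) * x ^ c * (n : G)⁻¹ = x ^ ((u n : ZMod p) * c).val := by
    intro n c
    rw [← conj_pow, hu n, ← pow_mul, ← pow_val_natCast hx, Nat.cast_mul,
      ZMod.natCast_rightInverse (u n : ZMod p)]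
  let θ : N →* (ZMod p)ˣ := MonoidHom.mk' u fun n n' => by
    refine Units.ext (hval _ _ ?_)
    have := hconj n (u n' : ZMod p).val
    rw [← hu n', ZMod.natCast_rightInverse (u n' : ZMod p)] at this
    rw [Units.val_mul, ← this, ← hu (n * n'), Subgroup.coe_mul, mul_inv_rev]
    group
  have hθ : ∀ n : N, (n : G) * x * (n : G)⁻¹ = x ^ (θ n : ZMod p).val := hu
  have hblock : ∀ (n : N) (b : Bool), (e.symm ((n : G) • e (b, 0))).1 = b := by
    intro n
    set σ : Bool → Bool := fun b => (e.symm ((n : G) • e (b, 0))).1 with hσ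
    set c : Bool → ZMod p := fun b => (e.symm ((n : G) • e (b, 0))).2 with hc
    have hact : ∀ b i, (n : G) • e (b, i) = e (σ b, ((θ n : ZMod p).val : ZMod p) * i + c b) :=
      smul_coord_of_conj he (hθ n)
    by_contra hno
    push Not at hno
    obtain ⟨b, hb⟩ := hno
    have hb' : σ b = !b := by
      revert hb; simp only [hσ]; cases b <;> cases (e.symm ((n : G) • e _)).1 <;> simp
    have hb'' : σ (!b) = b := by
      obtain ⟨a, ha⟩ := MulAction.surjective (n : G) (e (b, 0))
      obtain ⟨⟨b', i⟩, rfl⟩ := e.surjective a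
      have h2 : σ b' = b := by
        have h3 := e.injective (show e (σ b', _) = e (b, 0) from (hact b' i).symm.trans ha)
        exact (Prod.mk.inj h3).1
      rcases Bool.eq_or_eq_not b' b with h | h
      · rw [h, hb'] at h2; exact absurd h2 (by simp)
      · rwa [h] at h2
    have hall : ∀ b', σ b' = !b' := fun b' => by
      rcases Bool.eq_or_eq_not b' b with h | h
      · rw [h, hb']
      · rw [h, hb'', Bool.not_not]
    have hsign := heven (n : G)
    rw [← Equiv.Perm.sign_permCongr e.symm] at hsign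
    rw [sign_swap_affine hp3 _ (θ n) c] at hsign
    · exact absurd hsign (by decide)
    · intro b' i
      rw [Equiv.permCongr_apply, Equiv.symm_symm, MulAction.toPerm_apply, hact, hall,
        Equiv.symm_apply_apply, ZMod.natCast_rightInverse (θ n : ZMod p)]
  have hact : ∀ (n : N) (b : Bool) (i : ZMod p),
      (n : G) • e (b, i) = e (b, (θ n : ZMod p) * i + (e.symm ((n : G) • e (b, 0))).2) := by
    intro n b i
    rw [smul_coord_of_conj he (hθ n) b i, hblock n b, ZMod.natCast_rightInverse (θ n : ZMod p)]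
  have hfix1 : ∀ n : N, θ n = 1 → (n : G) • e (false, 0) = e (false, 0) → n = 1 := by
    intro n hn h0
    by_contra hne1
    refine hfree (n : G) ?_ (fun h => hne1 (Subtype.ext h)) _ h0
    refine eq_of_smul_eq_smul (α := Ω) fun a => ?_
    obtain ⟨⟨b, i⟩, rfl⟩ := e.surjective a
    have hk : ∀ (k : ℕ) (j : ZMod p), (n : G) ^ k • e (b, j) =
        e (b, j + k * (e.symm ((n : G) • e (b, 0))).2) := by
      intro k
      induction k with
      | zero => simp
      | succ k ih =>
        intro j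
        rw [pow_succ', mul_smul, ih, hact, hn, Units.val_one, one_mul, Nat.cast_succ, add_mul,
          one_mul, add_assoc]
    rw [hk, ZMod.natCast_self, zero_mul, add_zero, one_smul]
  have hxN : ∀ c : ℕ, x ^ c ∈ N := fun c =>
    Subgroup.le_normalizer ((Subgroup.zpowers x).pow_mem (Subgroup.mem_zpowers x) c)
  have hθx : ∀ c : ℕ, θ ⟨x ^ c, hxN c⟩ = 1 := by
    intro c
    refine Units.ext (hval _ _ ?_)
    rw [← hθ, Units.val_one, pow_val_one hx]
    show x ^ c * x * (x ^ c)⁻¹ = x
    group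
  have hadjust : ∀ n : N, ∃ c : ℕ, ((⟨x ^ c, hxN c⟩ * n : N) : G) • e (false, 0) = e (false, 0) := by
    intro n
    set d₀ := (e.symm ((n : G) • e (false, 0))).2 with hd₀
    refine ⟨(-d₀).val, ?_⟩
    rw [Subgroup.coe_mul, mul_smul, hact n false 0, ← hd₀, mul_zero, zero_add,
      pow_val_smul_coord he, add_neg_cancel]
  have hcardN : Nat.card N = p * Nat.card θ.range := by
    have hk : θ.ker = (Subgroup.zpowers x).subgroupOf N := by
      refine le_antisymm (fun n hn => ?_) (fun n hn => ?_)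
      · obtain ⟨c, hc⟩ := hadjust n
        have := hfix1 _ (by rw [map_mul, hθx, one_mul]; exact hn) hc
        rw [Subgroup.mem_subgroupOf]
        have h2 : x ^ c * (n : G) = 1 := congrArg Subtype.val this
        rw [eq_inv_of_mul_eq_one_right h2]
        exact inv_mem ((Subgroup.zpowers x).pow_mem (Subgroup.mem_zpowers x) c)
      · obtain ⟨c, hc⟩ := (mem_powers_iff_mem_zpowers (x := x)).mpr (Subgroup.mem_subgroupOf.mp hn)
        rw [MonoidHom.mem_ker, ← hθx c]
        exact congrArg θ (Subtype.ext hc.symm)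
    rw [← θ.ker.card_mul_index, Subgroup.index_ker, hk,
      Nat.card_congr (Subgroup.subgroupOfEquivOfLe Subgroup.le_normalizer).toEquiv,
      Nat.card_zpowers, hx]
  obtain ⟨⟨u₀, hu₀⟩, hgen⟩ := IsCyclic.exists_generator (α := θ.range)
  obtain ⟨n, hn⟩ := hu₀
  obtain ⟨c, hc⟩ := hadjust n
  set g₀ : N := ⟨x ^ c, hxN c⟩ * n with hg₀
  have hθg : θ g₀ = u₀ := by rw [hg₀, map_mul, hθx, one_mul, hn]
  set d := (e.symm ((g₀ : G) • e (true, 0))).2 with hd
  set i₀ := d * (1 - (u₀ : ZMod p))⁻¹ with hi₀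
  have hfixed : (u₀ : ZMod p) * i₀ + d = i₀ := by
    by_cases h1 : (1 - (u₀ : ZMod p)) = 0
    · have : g₀ = 1 := hfix1 _ (by
        rw [hθg]; exact Units.ext (by rw [Units.val_one]; exact (sub_eq_zero.mp h1).symm)) hc
      have hd0 : d = 0 := by rw [hd, this, Subgroup.coe_one, one_smul, Equiv.symm_apply_apply]
      rw [hi₀, hd0]; ring
    · rw [hi₀]
      field_simp
      ring
  let e' : Bool × ZMod p ≃ Ω :=
    (Equiv.prodCongrRight fun b : Bool => Equiv.addRight (cond b i₀ 0)).trans e
  have he'_apply : ∀ b i, e' (b, i) = e (b, i + cond b i₀ 0) := fun b i => rfl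
  have hg0act : ∀ b i, (g₀ : G) • e' (b, i) = e' (b, (u₀ : ZMod p) * i) := by
    intro b i
    rw [he'_apply, he'_apply, hact, hθg]
    cases b
    · have : (e.symm ((g₀ : G) • e (false, 0))).2 = 0 := by rw [hc, Equiv.symm_apply_apply]
      rw [this]; simp
    · rw [← hd]
      simp only [cond_true]
      rw [mul_add, add_assoc, hfixed]
  refine ⟨e', θ.range, fun b i => ?_, hcardN, fun v hv => ?_⟩
  · rw [he'_apply, he'_apply, he, add_right_comm]
  · obtain ⟨k, hk⟩ := (mem_powers_iff_mem_zpowers).mpr (hgen ⟨v, hv⟩)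
    have hk' : u₀ ^ k = v := congrArg Subtype.val hk
    refine ⟨((g₀ ^ k : N) : G), ?_, ?_⟩
    · rw [hθ, map_pow, hθg, hk']
    · rw [← hk', SubgroupClass.coe_pow]
      clear hk hk'
      induction k with
      | zero => simp
      | succ k ih =>
        intro b i
        rw [pow_succ', mul_smul, ih, hg0act, pow_succ', Units.val_mul, mul_assoc]

end CfsgLib.PermGroups.TwoP
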