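import Cfsg.Agent.Lib.PermGroups.TwoPGroup
import Cfsg.Agent.Lib.CharTheory.Decomp
import Cfsg.Agent.Lib.CharTheory.Values

/-!
# Eigenvalue multiplicities of an element of prime order
-/

set_option autoImplicit false
set_option linter.unusedSectionVars false
set_option linter.style.haveILetI false

namespace CfsgLib.PermGroups.TwoP

open Cfsg CfsgLib.CharTheory
open scoped ComplexConjugate

variable {p : ℕ} [hpF : Fact p.Prime]

/-- The standard additive character of `ZMod p`. -/
noncomputable def omega (p : ℕ) [Fact p.Prime] : AddChar (ZMod p) ℂ :=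
  AddChar.zmodChar p
    (Complex.isPrimitiveRoot_exp p (Fact.out : p.Prime).ne_zero).pow_eq_one

theorem omega_primitive : (omega p).IsPrimitive :=
  AddChar.zmodChar_primitive_of_primitive_root p
    (Complex.isPrimitiveRoot_exp p hpF.out.ne_zero)

theorem sum_omega (k : ZMod p) : ∑ c, omega p (c * k) = if k = 0 then (p : ℂ) else 0 := by
  have := AddChar.sum_mulShift k (omega_primitive (p := p))
  rw [this, ZMod.card]
  split_ifs <;> simp

theorem omega_pow_eq_one (j : ZMod p) : omega p j ^ p = 1 := by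
  rw [← AddChar.map_nsmul_eq_pow, nsmul_eq_mul, ZMod.natCast_self, zero_mul, AddChar.map_zero_eq_one]

theorem omega_pow (j : ZMod p) (k : ℕ) : omega p j ^ k = omega p ((k : ZMod p) * j) := by
  rw [← AddChar.map_nsmul_eq_pow, nsmul_eq_mul]

variable {G : Type*} [Group G] [Fintype G] {x : G}

/-- `n` lists the multiplicities of the eigenvalues of `x` for the character `χ`. -/
def IsWeights (x : G) (χ : G → ℂ) (n : ZMod p → ℕ) : Prop :=
  ∀ c : ZMod p, χ (x ^ c.val) = ∑ j, (n j : ℂ) * omega p (j * c)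

theorem exists_weights (hx : orderOf x = p) {χ : G → ℂ} (hχ : IsCharacter G χ) :
    ∃ n : ZMod p → ℕ, IsWeights x χ n := by
  classical
  obtain ⟨d, ρ, rfl⟩ := hχ
  obtain ⟨ι, _, b, μ, -, hμ, -, hchar⟩ := exists_eigenbasis ρ x
  rw [hx] at hμ
  have hj : ∀ i, ∃ j : ZMod p, omega p j = μ i := fun i => by
    obtain ⟨k, -, hk⟩ :=
      (Complex.isPrimitiveRoot_exp p hpF.out.ne_zero).eq_pow_of_pow_eq_one (hμ i)
    exact ⟨(k : ZMod p), by rw [omega, AddChar.zmodChar_apply']; exact hk⟩
  choose j hj using hj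
  refine ⟨fun k => (Finset.univ.filter fun i => j i = k).card, fun c => ?_⟩
  rw [hchar, ← Finset.sum_fiberwise Finset.univ j]
  refine Finset.sum_congr rfl fun k _ => ?_
  rw [Finset.sum_congr rfl (g := fun _ => omega p (k * c)) fun i hi => ?_, Finset.sum_const,
    nsmul_eq_mul]
  rw [← hj, (Finset.mem_filter.mp hi).2, omega_pow, ZMod.natCast_rightInverse c, mul_comm]

theorem IsWeights.inversion {χ : G → ℂ} {n : ZMod p → ℕ} (h : IsWeights x χ n) (j : ZMod p) :
    ∑ c : ZMod p, χ (x ^ c.val) * omega p (-(j * c)) = (p : ℂ) * n j := by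
  classical
  calc ∑ c : ZMod p, χ (x ^ c.val) * omega p (-(j * c))
      = ∑ k : ZMod p, (n k : ℂ) * ∑ c : ZMod p, omega p (c * (k - j)) := by
        rw [Finset.sum_congr rfl fun c _ => by rw [h c, Finset.sum_mul], Finset.sum_comm]
        refine Finset.sum_congr rfl fun k _ => ?_
        rw [Finset.mul_sum]
        refine Finset.sum_congr rfl fun c _ => ?_
        rw [mul_assoc, ← AddChar.map_add_eq_mul]
        ring_nf
    _ = _ := by
        simp only [sum_omega, sub_eq_zero, mul_ite, mul_zero, Finset.sum_ite_eq', Finset.mem_univ,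
          if_true]
        ring

theorem IsWeights.unique {χ : G → ℂ} {n n' : ZMod p → ℕ} (h : IsWeights x χ n)
    (h' : IsWeights x χ n') : n = n' := by
  funext j
  have := (h.inversion j).symm.trans (h'.inversion j)
  exact_mod_cast mul_left_cancel₀ (Nat.cast_ne_zero.mpr hpF.out.ne_zero) this

theorem IsWeights.degree {χ : G → ℂ} {n : ZMod p → ℕ} (h : IsWeights x χ n) :
    χ 1 = ((∑ j, n j : ℕ) : ℂ) := by
  have := h 0
  simp only [ZMod.val_zero, pow_zero, mul_zero, AddChar.map_zero_eq_one, mul_one] at this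
  rw [this]
  push_cast
  rfl

theorem IsWeights.sum_apply {χ : G → ℂ} {n : ZMod p → ℕ} (h : IsWeights x χ n) :
    ∑ c : ZMod p, χ (x ^ c.val) = (p : ℂ) * n 0 := by
  rw [← h.inversion 0]
  simp

/-- The norm on `⟨x⟩` of a character with simple eigenvalues. -/
theorem IsWeights.sum_sq {χ : G → ℂ} {n : ZMod p → ℕ} (h : IsWeights x χ n) (hle : ∀ j, n j ≤ 1) :
    ∑ c : ZMod p, χ (x ^ c.val) * conj (χ (x ^ c.val)) = (p : ℂ) * χ 1 := by
  have hc : ∀ c : ZMod p, conj (χ (x ^ c.val)) = ∑ j, (n j : ℂ) * omega p (-(j * c)) := fun c => by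
    rw [h c, map_sum]
    refine Finset.sum_congr rfl fun j _ => ?_
    rw [map_mul, Complex.conj_natCast, AddChar.map_neg_eq_inv]
    congr 1
    refine (Complex.inv_eq_conj ?_).symm
    exact Complex.norm_eq_one_of_pow_eq_one (omega_pow_eq_one _) hpF.out.ne_zero
  rw [Finset.sum_congr rfl fun c _ => by rw [hc c, Finset.mul_sum], Finset.sum_comm, h.degree,
    Nat.cast_sum, Finset.mul_sum]
  refine Finset.sum_congr rfl fun j _ => ?_
  calc ∑ c : ZMod p, χ (x ^ c.val) * ((n j : ℂ) * omega p (-(j * c)))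
      = (n j : ℂ) * ∑ c : ZMod p, χ (x ^ c.val) * omega p (-(j * c)) := by
        rw [Finset.mul_sum]
        exact Finset.sum_congr rfl fun c _ => by ring
    _ = _ := by
        rw [h.inversion]
        rcases Nat.le_one_iff_eq_zero_or_eq_one.mp (hle j) with h0 | h0 <;> rw [h0] <;> simp

end CfsgLib.PermGroups.TwoP
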