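import Cfsg.Agent.Lib.PermGroups.Jordan
import Cfsg.Agent.Lib.PermGroups.SylowFix

/-!
Wagner's theorem: normal subgroups of triply transitive groups of odd degree.
-/

namespace CfsgLib.PermGroups

open MulAction
open scoped Pointwise

/-- A non-trivial normal subgroup of a triply transitive group of odd degree at least 5 is triply
transitive. -/
theorem wagner_normal_subgroup {G α : Type*} [Group G] [Finite G] [MulAction G α] [FaithfulSMul G α]
    [Finite α] (hodd : Odd (Nat.card α)) (h5 : 5 ≤ Nat.card α)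
    (hG : IsMultiplyPretransitive G α 3) (N : Subgroup G) [hNn : N.Normal] (hN : N ≠ ⊥) :
    IsMultiplyPretransitive N α 3 := by
  classical
  have h2G : IsMultiplyPretransitive G α 2 :=
    isMultiplyPretransitive_of_le (n := 3) (by norm_num) (by omega)
  rcases jordan_normal_subgroup 3 G α (by norm_num) (by omega) hG N hNn hN with
    h2N | ⟨-, hc, hex, htN⟩
  swap
  · exfalso
    obtain ⟨a⟩ : Nonempty α := (Nat.card_pos_iff.1 (show 0 < Nat.card α by omega)).1
    have hp : IsPGroup 2 N := fun n => ⟨1, Subtype.ext (by simpa using hex n n.2)⟩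
    obtain ⟨m, hm⟩ := IsPGroup.iff_card.1 hp
    rw [← card_eq_of_regular N (semiregular_of_abelian_transitive N hc a), hm] at hodd h5
    rcases Nat.eq_zero_or_pos m with h0 | h0
    · rw [h0] at h5; norm_num at h5
    · exact Nat.not_even_iff_odd.2 hodd (Nat.even_pow.2 ⟨even_two, h0.ne'⟩)
  have key : ∀ a b c d : α, a ≠ b → c ≠ a → c ≠ b → d ≠ a → d ≠ b →
      ∃ g : N, g • a = a ∧ g • b = b ∧ g • c = d := by
    intro a b c d hab hca hcb hda hdb
    let S : Subgroup N := stabilizer N ({a, b} : Set α)
    have hmemS : ∀ g : N, g ∈ S → (g • a = a ∧ g • b = b) ∨ (g • a = b ∧ g • b = a) := by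
      intro g hg
      have he : g • ({a, b} : Set α) = {a, b} := hg
      rw [Set.smul_set_insert, Set.smul_set_singleton, Set.pair_eq_pair_iff] at he
      exact he
    have hSmem : ∀ g : N, g • a = b → g • b = a → g ∈ S := fun g h1 h2 => by
      show g • ({a, b} : Set α) = {a, b}
      rw [Set.smul_set_insert, Set.smul_set_singleton, h1, h2, Set.pair_comm]
    let C : SubMulAction S α :=
      { carrier := ({a, b} : Set α)ᶜ
        smul_mem' := fun s x hx he => hx (by
          have hs : (s : N) • ({a, b} : Set α) = {a, b} := s.2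
          rw [← hs] at he
          obtain ⟨y, hy, hyx⟩ := he
          rwa [← smul_left_cancel (s : N) hyx]) }
    have hmemC : ∀ x : α, x ∈ C ↔ x ≠ a ∧ x ≠ b := fun x => by
      show x ∈ ({a, b} : Set α)ᶜ ↔ _
      simp
    -- all orbits of `S` outside `{a, b}` have the same length
    have horb : ∀ x y : α, x ∈ C → y ∈ C → (orbit S x).ncard = (orbit S y).ncard := by
      intro x y hx hy
      rw [hmemC] at hx hy
      have hinj : ∀ z : α, z ≠ a → z ≠ b → Function.Injective ![a, b, z] := fun z hza hzb i j hij => by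
        fin_cases i <;> fin_cases j <;> simp_all [eq_comm]
      obtain ⟨g, hg⟩ := hG.exists_smul_eq ⟨![a, b, x], hinj x hx.1 hx.2⟩ ⟨![a, b, y], hinj y hy.1 hy.2⟩
      have hga : g • a = a := DFunLike.congr_fun hg 0
      have hgb : g • b = b := DFunLike.congr_fun hg 1
      have hgx : g • x = y := DFunLike.congr_fun hg 2
      have hset : ∀ u : G, u • a = a → u • b = b → ∀ s : N, s ∈ S →
          ∀ (hm : u * (s : G) * u⁻¹ ∈ N), (⟨u * (s : G) * u⁻¹, hm⟩ : N) ∈ S := by
        intro u hua hub s hs hm
        have e : u • ({a, b} : Set α) = {a, b} := by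
          rw [Set.smul_set_insert, Set.smul_set_singleton, hua, hub]
        show (u * (s : G) * u⁻¹) • ({a, b} : Set α) = {a, b}
        have e2 : (s : G) • ({a, b} : Set α) = {a, b} := hs
        rw [mul_smul, mul_smul, inv_smul_eq_iff.2 e.symm, e2, e]
      have himg : (g • ·) '' (orbit S x) = orbit S y := by
        ext z
        constructor
        · rintro ⟨_, ⟨s, rfl⟩, rfl⟩
          refine ⟨⟨⟨g * ((s : N) : G) * g⁻¹, hNn.conj_mem _ (s : N).2 g⟩,
            hset g hga hgb s s.2 _⟩, ?_⟩
          show (g * ((s : N) : G) * g⁻¹) • y = g • ((s : N) : G) • x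
          rw [mul_smul, mul_smul, inv_smul_eq_iff.2 hgx.symm]
        · rintro ⟨s, rfl⟩
          refine ⟨((s : N) : G) • y |> (g⁻¹ • ·), ⟨⟨⟨g⁻¹ * ((s : N) : G) * g⁻¹⁻¹,
            hNn.conj_mem _ (s : N).2 g⁻¹⟩,
            hset g⁻¹ (inv_smul_eq_iff.2 hga.symm) (inv_smul_eq_iff.2 hgb.symm) s s.2 _⟩, ?_⟩, ?_⟩
          · show (g⁻¹ * ((s : N) : G) * g⁻¹⁻¹) • x = g⁻¹ • ((s : N) : G) • y
            rw [inv_inv, mul_smul, mul_smul, hgx]
          · exact smul_inv_smul g _
      rw [← himg, Set.ncard_image_of_injective _ (MulAction.injective g)]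
    have hCcard : Nat.card C = Nat.card α - 2 := by
      rw [← Set.ncard_pair hab, ← Set.ncard_compl, ← Nat.card_coe_set_eq]
      rfl
    have hoddorb : ∀ x : α, x ∈ C → Odd (orbit S x).ncard := by
      intro x hx
      have : Fintype (orbitRel.Quotient S C) := Fintype.ofFinite _
      have hconst : ∀ q : orbitRel.Quotient S C, Nat.card (orbit S q.out) = (orbit S x).ncard := by
        intro q
        rw [← horb _ _ q.out.2 hx, Nat.card_coe_set_eq]
        have e : (Subtype.val : C → α) '' orbit S q.out = orbit S (q.out : α) := by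
          ext z
          constructor
          · rintro ⟨_, ⟨s, rfl⟩, rfl⟩; exact ⟨s, rfl⟩
          · rintro ⟨s, rfl⟩; exact ⟨s • q.out, ⟨s, rfl⟩, rfl⟩
        rw [← e, Set.ncard_image_of_injective _ Subtype.val_injective]
      have hsum := Nat.card_congr (selfEquivSigmaOrbits S C)
      rw [Nat.card_sigma, Finset.sum_congr rfl fun q _ => hconst q, Finset.sum_const, smul_eq_mul,
        hCcard] at hsum
      have hodd' : Odd (Nat.card α - 2) := by
        obtain ⟨k, hk⟩ := hodd
        exact ⟨k - 1, by omega⟩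
      rw [hsum] at hodd'
      exact (Nat.odd_mul.1 hodd').2
    let T : Sylow 2 S := default
    have hswap : ∃ t : N, t • a = b ∧ t • b = a := exists_smul_pair hab hab.symm
    obtain ⟨t₀, ht₀a, ht₀b⟩ := hswap
    have hTS : Nat.card S = 2 * Nat.card (stabilizer S a) := by
      rw [← Subgroup.index_mul_card (stabilizer S a), index_stabilizer]
      congr 1
      have : orbit S a = {a, b} := by
        ext z
        constructor
        · rintro ⟨s, rfl⟩
          rcases hmemS s s.2 with ⟨h1, -⟩ | ⟨h1, -⟩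
          · exact Or.inl h1
          · exact Or.inr h1
        · rintro (h | h)
          · rw [h]; exact mem_orbit_self a
          · rw [Set.mem_singleton_iff] at h
            rw [h]; exact ⟨⟨t₀, hSmem t₀ ht₀a ht₀b⟩, ht₀a⟩
      rw [this, Set.ncard_pair hab]
    have hT : Nat.card (T : Subgroup S) =
        2 ^ ((Nat.card (stabilizer S a)).factorization 2 + 1) := by
      rw [T.card_eq_multiplicity, hTS, Nat.factorization_mul two_ne_zero Nat.card_pos.ne',
        Finsupp.add_apply, Nat.prime_two.factorization_self, add_comm]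
    have hTnot : ∀ K : ℕ, Nat.card (T : Subgroup S) ∣ K → K ≠ 0 →
        K = Nat.card (stabilizer S a) → False := by
      intro K hdvd hK0 hK
      rw [hT, Nat.prime_two.pow_dvd_iff_le_factorization hK0, hK] at hdvd
      omega
    -- a Sylow 2-subgroup fixes exactly one point outside `{a, b}`
    have hone : ∀ x y : α, x ∈ C → y ∈ C → (∀ r ∈ (T : Subgroup S), r • x = x) →
        (∀ r ∈ (T : Subgroup S), r • y = y) → x = y := by
      intro x y hx hy hrx hry
      by_contra hxy
      obtain ⟨g, hgx, hgy⟩ := exists_smul_pair (G := N) hxy hab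
      have e : ∀ s : stabilizer S a, (s : S) • b = b := fun s => by
        rcases hmemS (s : S) (s : S).2 with ⟨-, h⟩ | ⟨h, -⟩
        · exact h
        · exact absurd ((show (s : S) • a = a from s.2).symm.trans h) hab
      let f : ↥(T : Subgroup S) → stabilizer S a := fun r =>
        ⟨⟨g * ((r : S) : N) * g⁻¹, by
          show (g * ((r : S) : N) * g⁻¹) • ({a, b} : Set α) = {a, b}
          rw [Set.smul_set_insert, Set.smul_set_singleton]
          congr 1
          · rw [← hgx, mul_smul, mul_smul, inv_smul_smul]; exact congrArg (g • ·) (hrx r r.2)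
          · congr 1
            rw [← hgy, mul_smul, mul_smul, inv_smul_smul]; exact congrArg (g • ·) (hry r r.2)⟩, by
          show (g * ((r : S) : N) * g⁻¹) • a = a
          rw [← hgx, mul_smul, mul_smul, inv_smul_smul]; exact congrArg (g • ·) (hrx r r.2)⟩
      let φ : (T : Subgroup S) →* stabilizer S a :=
        { toFun := f
          map_one' := Subtype.ext (Subtype.ext (by simp [f]))
          map_mul' := fun r r' => Subtype.ext (Subtype.ext (by simp [f, mul_assoc])) }
      have hinj : Function.Injective φ := fun r r' h => by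
        have h1 : g * ((r : S) : N) * g⁻¹ = g * ((r' : S) : N) * g⁻¹ :=
          congrArg (fun z : stabilizer S a => ((z : S) : N)) h
        exact Subtype.ext (Subtype.ext (mul_left_cancel (mul_right_cancel h1)))
      exact hTnot _ (Subgroup.card_dvd_of_injective φ hinj) Nat.card_pos.ne' rfl
    -- every point has a fixing element interchanging `a` and `b`
    have hfixswap : ∀ x : α, x ∈ C → ∃ s : S, s • x = x ∧ s • a = b := by
      intro x hx
      obtain ⟨x', hx', hfix⟩ := exists_fixed_mem_orbit_of_not_dvd T x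
        (fun h => Nat.not_even_iff_odd.2 (hoddorb x hx) (even_iff_two_dvd.2 h))
      obtain ⟨r, hr, hra⟩ : ∃ r ∈ (T : Subgroup S), r • a ≠ a := by
        by_contra! hall
        exact hTnot _ (Subgroup.card_dvd_of_le (show (T : Subgroup S) ≤ stabilizer S a from hall))
          Nat.card_pos.ne' rfl
      obtain ⟨u, rfl⟩ := hx'
      refine ⟨u⁻¹ * r * u, ?_, ?_⟩
      · rw [mul_smul, mul_smul, inv_smul_eq_iff]; exact hfix r hr
      · have hrab : r • a = b ∧ r • b = a := (hmemS r r.2).resolve_left fun h => hra h.1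
        rcases hmemS u u.2 with ⟨h1, h2⟩ | ⟨h1, h2⟩
        · rw [mul_smul, mul_smul, show u • a = a from h1, hrab.1, inv_smul_eq_iff]
          exact h2.symm
        · rw [mul_smul, mul_smul, show u • a = b from h1, hrab.2, inv_smul_eq_iff]
          exact h2.symm
    have hc : c ∈ C := (hmemC c).2 ⟨hca, hcb⟩
    have hd : d ∈ C := (hmemC d).2 ⟨hda, hdb⟩
    obtain ⟨c', hc', hcfix⟩ := exists_fixed_mem_orbit_of_not_dvd T c
      (fun h => Nat.not_even_iff_odd.2 (hoddorb c hc) (even_iff_two_dvd.2 h))
    obtain ⟨d', hd', hdfix⟩ := exists_fixed_mem_orbit_of_not_dvd T d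
      (fun h => Nat.not_even_iff_odd.2 (hoddorb d hd) (even_iff_two_dvd.2 h))
    obtain ⟨u, rfl⟩ := hc'
    obtain ⟨v, rfl⟩ := hd'
    have heq : u • c = v • d := hone _ _ (C.smul_mem u hc) (C.smul_mem v hd) hcfix hdfix
    have hcd : (v⁻¹ * u) • c = d := by rw [mul_smul, heq, inv_smul_smul]
    rcases hmemS ((v⁻¹ * u : S) : N) (v⁻¹ * u).2 with ⟨h1, h2⟩ | ⟨h1, h2⟩
    · exact ⟨_, h1, h2, hcd⟩
    · obtain ⟨t, htc, hta⟩ := hfixswap c hc
      have htb : t • b = a := ((hmemS t t.2).resolve_left fun h => hab (h.1.symm.trans hta)).2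
      refine ⟨((v⁻¹ * u * t : S) : N), ?_, ?_, ?_⟩
      · show (v⁻¹ * u * t) • a = a
        rw [mul_smul, hta]; exact h2
      · show (v⁻¹ * u * t) • b = b
        rw [mul_smul, htb]; exact h1
      · show (v⁻¹ * u * t) • c = d
        rw [mul_smul, htc, hcd]
  refine ⟨fun x y => ?_⟩
  have hx : ∀ i j : Fin 3, i ≠ j → x i ≠ x j := fun i j hij h => hij (x.injective h)
  have hy : ∀ i j : Fin 3, i ≠ j → y i ≠ y j := fun i j hij h => hij (y.injective h)
  obtain ⟨g, hg0, hg1⟩ := exists_smul_pair (G := N) (hx 0 1 (by decide)) (hy 0 1 (by decide))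
  have hc0 : g • x 2 ≠ y 0 := fun h => hx 2 0 (by decide) (smul_left_cancel g (h.trans hg0.symm))
  have hc1 : g • x 2 ≠ y 1 := fun h => hx 2 1 (by decide) (smul_left_cancel g (h.trans hg1.symm))
  obtain ⟨k, hk0, hk1, hk2⟩ := key (y 0) (y 1) (g • x 2) (y 2) (hy 0 1 (by decide)) hc0 hc1
    (hy 2 0 (by decide)) (hy 2 1 (by decide))
  refine ⟨k * g, Function.Embedding.ext fun i => ?_⟩
  fin_cases i
  · show (k * g) • x 0 = y 0
    rw [mul_smul, hg0, hk0]
  · show (k * g) • x 1 = y 1
    rw [mul_smul, hg1, hk1]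
  · show (k * g) • x 2 = y 2
    rw [mul_smul, hk2]

end CfsgLib.PermGroups
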